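import Mathlib

set_option autoImplicit false

namespace Cfsg.Agent.Lib.Helper29.Syl3

variable {G : Type*} [Group G] [Finite G]

theorem ker3 [Fact (Nat.Prime 3)] (hP3 : ∀ P : Sylow 3 G, Nat.card (P : Subgroup G) = 3) (k : G)
    (hk : orderOf k = 3) (hfix : ∀ P : Sylow 3 G, k • P = P) : Nat.card (Sylow 3 G) = 1 := by
  have hz : IsPGroup 3 (Subgroup.zpowers k) :=
    IsPGroup.of_card (n := 1) (by rw [Nat.card_zpowers, hk, pow_one])
  have hall : ∀ P : Sylow 3 G, (P : Subgroup G) = Subgroup.zpowers k := by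
    intro P
    have h1 := hz.inf_normalizer_sylow P
    have h2 : k ∈ Subgroup.zpowers k ⊓ (P : Subgroup G) := by
      rw [← h1]
      exact ⟨Subgroup.mem_zpowers k, Sylow.smul_eq_iff_mem_normalizer.1 (hfix P)⟩
    have h3 : Subgroup.zpowers k ≤ P := by rw [Subgroup.zpowers_le]; exact h2.2
    exact (Subgroup.eq_of_le_of_card_ge h3 (by rw [hP3, Nat.card_zpowers, hk])).symm
  haveI : Subsingleton (Sylow 3 G) := ⟨fun P Q => Sylow.ext (by rw [hall P, hall Q])⟩
  obtain ⟨P⟩ : Nonempty (Sylow 3 G) := inferInstance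
  exact Nat.card_of_subsingleton P

theorem normal_of_card [Fact (Nat.Prime 3)] (P : Sylow 3 G) (h : Nat.card (Sylow 3 G) = 1) :
    (P : Subgroup G).Normal := by
  have h1 := Sylow.card_eq_index_normalizer P
  rw [h] at h1
  exact Subgroup.normalizer_eq_top_iff.1 (Subgroup.index_eq_one.1 h1.symm)

theorem exists_invol [Fact (Nat.Prime 3)] (P : Sylow 3 G) (hP : Nat.card (P : Subgroup G) = 3)
    (hN : (P : Subgroup G).Normal) (h4 : 4 ∣ Nat.card G) :
    ∃ t : G, orderOf t = 2 ∧ ∀ x ∈ (P : Subgroup G), Commute t x := by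
  haveI : Fact (Nat.Prime 2) := ⟨by norm_num⟩
  haveI hcyc : IsCyclic (P : Subgroup G) := isCyclic_of_prime_card hP
  have key := Subgroup.card_dvd_of_injective _
    (QuotientGroup.kerLift_injective (P : Subgroup G).normalizerMonoidHom)
  rw [Subgroup.normalizerMonoidHom_ker, ← Subgroup.index, ← Subgroup.relIndex, hcyc.card_mulAut,
    hP, show Nat.totient 3 = 2 from by decide] at key
  have h1 := Subgroup.relIndex_mul_relIndex ⊥ _ _ bot_le
    (Subgroup.centralizer_le_normalizer ((P : Subgroup G) : Set G))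
  rw [Subgroup.relIndex_bot_left, Subgroup.relIndex_bot_left,
    Subgroup.normalizer_eq_top_iff.2 hN, Subgroup.card_top] at h1
  rw [Subgroup.normalizer_eq_top_iff.2 hN] at key
  obtain ⟨k, hk⟩ := h4
  have h2 : 2 ∣ Nat.card (Subgroup.centralizer ((P : Subgroup G) : Set G)) := by
    rcases (Nat.dvd_prime Nat.prime_two).1 key with h | h
    · rw [h] at h1; exact ⟨2 * k, by omega⟩
    · rw [h] at h1; exact ⟨k, by omega⟩
  obtain ⟨t, ht⟩ := exists_prime_orderOf_dvd_card'
    (G := Subgroup.centralizer ((P : Subgroup G) : Set G)) 2 h2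
  exact ⟨t, by rw [Subgroup.orderOf_coe]; exact ht,
    fun x hx => (Subgroup.mem_centralizer_iff.1 t.2 x hx).symm⟩

/-- commutator trick: an element fixing all Sylow 3-subgroups commutes with elements of order 3
unless there is just one Sylow 3-subgroup. -/
theorem commute_of_fix [Fact (Nat.Prime 3)] (hP3 : ∀ P : Sylow 3 G, Nat.card (P : Subgroup G) = 3)
    (hn : Nat.card (Sylow 3 G) ≠ 1) (k : G) (hfix : ∀ P : Sylow 3 G, k • P = P)
    (P : Sylow 3 G) (x : G) (hx : x ∈ (P : Subgroup G)) : Commute k x := by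
  have hfix' : ∀ Q : Sylow 3 G, k⁻¹ • Q = Q := fun Q => by rw [inv_smul_eq_iff, hfix]
  have hkN : k ∈ Subgroup.normalizer ((P : Subgroup G) : Set G) :=
    Sylow.smul_eq_iff_mem_normalizer.1 (hfix P)
  have hc : k * x * k⁻¹ * x⁻¹ ∈ (P : Subgroup G) :=
    Subgroup.mul_mem _ ((Subgroup.mem_normalizer_iff.1 hkN x).1 hx) (Subgroup.inv_mem _ hx)
  have hcf : ∀ Q : Sylow 3 G, (k * x * k⁻¹ * x⁻¹) • Q = Q := by
    intro Q
    rw [mul_smul, mul_smul, mul_smul, hfix', hfix, smul_inv_smul]
  by_contra hne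
  have hc1 : k * x * k⁻¹ * x⁻¹ ≠ 1 := by
    intro h
    apply hne
    have : k * x = x * k := by
      have := congrArg (fun z => z * x * k) h
      simpa [mul_assoc] using this
    exact this
  have ho : orderOf (k * x * k⁻¹ * x⁻¹) = 3 := by
    have := orderOf_dvd_natCard (⟨_, hc⟩ : (P : Subgroup G))
    rw [hP3, Nat.dvd_prime (by norm_num), Subgroup.orderOf_mk] at this
    rcases this with h | h
    · exact absurd (orderOf_eq_one_iff.1 h) hc1
    · exact h
  exact hn (ker3 hP3 _ ho hcf)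

end Cfsg.Agent.Lib.Helper29.Syl3
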