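import Mathlib

/-! Extraspecial-type groups: normal forms with respect to a non-commuting pair, and the resulting
inductive classification. -/

namespace Cfsg.Agent.Lib.Helper29.Extra

/-- `E` has centre generated by `z` of order `p`, and commutators and `p`-th powers lie in it. -/
structure XS (p : ℕ) (E : Type*) [Group E] (z : E) : Prop where
  ord : orderOf z = p
  zc : ∀ g : E, z * g = g * z
  cen : ∀ w : E, (∀ g, w * g = g * w) → ∃ k : ℕ, w = z ^ k
  comm : ∀ g h : E, ∃ k : ℕ, h * g = g * h * z ^ k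
  pw : ∀ g : E, ∃ k : ℕ, g ^ p = z ^ k

section basic
variable {E : Type*} [Group E]

theorem swap_pow_left {x y w : E} (hw : ∀ g, w * g = g * w) (hxy : y * x = x * y * w) (m : ℕ) :
    y ^ m * x = x * y ^ m * w ^ m := by
  induction m with
  | zero => simp
  | succ m ih =>
    calc y ^ (m + 1) * x = y * (y ^ m * x) := by rw [pow_succ', mul_assoc]
      _ = y * (x * y ^ m * w ^ m) := by rw [ih]
      _ = (y * x) * y ^ m * w ^ m := by simp only [mul_assoc]
      _ = x * y * w * y ^ m * w ^ m := by rw [hxy]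
      _ = x * y * (y ^ m * w) * w ^ m := by rw [mul_assoc (x * y) w, hw]
      _ = x * y ^ (m + 1) * w ^ (m + 1) := by
        rw [pow_succ', pow_succ']; simp only [mul_assoc]

theorem swap_pow_right {x y w : E} (hw : ∀ g, w * g = g * w) (hxy : y * x = x * y * w) (n : ℕ) :
    y * x ^ n = x ^ n * y * w ^ n := by
  induction n with
  | zero => simp
  | succ n ih =>
    calc y * x ^ (n + 1) = (y * x ^ n) * x := by rw [pow_succ, mul_assoc]
      _ = x ^ n * y * w ^ n * x := by rw [ih]
      _ = x ^ n * (y * x) * w ^ n := by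
        have : w ^ n * x = x * w ^ n := ((show Commute w x from hw x).pow_left n)
        rw [mul_assoc (x ^ n * y), this]; simp only [mul_assoc]
      _ = x ^ n * (x * y * w) * w ^ n := by rw [hxy]
      _ = x ^ (n + 1) * y * w ^ (n + 1) := by
        rw [pow_succ, pow_succ']; simp only [mul_assoc]

/-- the centraliser of the pair. -/
def Cen (x y : E) : Subgroup E where
  carrier := {c | Commute c x ∧ Commute c y}
  one_mem' := ⟨Commute.one_left x, Commute.one_left y⟩
  mul_mem' := fun ha hb => ⟨ha.1.mul_left hb.1, ha.2.mul_left hb.2⟩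
  inv_mem' := fun ha => ⟨ha.1.inv_left, ha.2.inv_left⟩

theorem mem_Cen {x y c : E} : c ∈ Cen x y ↔ Commute c x ∧ Commute c y := Iff.rfl

end basic

namespace XS

variable {p : ℕ} {E : Type*} [Group E] {z : E}

theorem zk (h : XS p E z) (k : ℕ) (g : E) : Commute (z ^ k) g :=
  (show Commute z g from h.zc g).pow_left k

theorem zk' (h : XS p E z) (k : ℕ) (g : E) : z ^ k * g = g * z ^ k := h.zk k g

theorem z_mem (h : XS p E z) (x y : E) : z ∈ Cen x y := ⟨h.zc x, h.zc y⟩

theorem zpow_mem (h : XS p E z) (x y : E) (k : ℕ) : z ^ k ∈ Cen x y :=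
  (Cen x y).pow_mem (h.z_mem x y) k

theorem zp (h : XS p E z) : z ^ p = 1 := h.ord ▸ pow_orderOf_eq_one z

theorem zpow_inj (h : XS p E z) {a b : ℕ} (ha : a < p) (hb : b < p) (hab : z ^ a = z ^ b) :
    a = b := by
  rw [pow_eq_pow_iff_modEq, h.ord] at hab
  exact Nat.ModEq.eq_of_lt_of_lt hab ha hb

variable {x y : E}

/-- commutation of a normal form with `y`. -/
theorem rel_y (h : XS p E z) (hxy : y * x = x * y * z) (A B : ℕ) {c : E} (hc : c ∈ Cen x y) :
    y * (x ^ A * y ^ B * c) = (x ^ A * y ^ B * c) * y * z ^ A := by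
  have h1 := swap_pow_right h.zc hxy A
  have h2 : y * y ^ B = y ^ B * y := (Commute.refl y).pow_right B
  have h3 : c * y = y * c := hc.2
  calc y * (x ^ A * y ^ B * c) = (y * x ^ A) * y ^ B * c := by simp only [mul_assoc]
    _ = x ^ A * y * z ^ A * y ^ B * c := by rw [h1]
    _ = x ^ A * y * (y ^ B * c * z ^ A) := by
      rw [mul_assoc (x ^ A * y) (z ^ A), mul_assoc (x ^ A * y), mul_assoc (z ^ A), h.zk']
    _ = x ^ A * (y * y ^ B) * c * z ^ A := by simp only [mul_assoc]
    _ = x ^ A * (y ^ B * y) * c * z ^ A := by rw [h2]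
    _ = x ^ A * y ^ B * (y * c) * z ^ A := by simp only [mul_assoc]
    _ = x ^ A * y ^ B * (c * y) * z ^ A := by rw [h3]
    _ = (x ^ A * y ^ B * c) * y * z ^ A := by simp only [mul_assoc]

/-- commutation of a normal form with `x`. -/
theorem rel_x (h : XS p E z) (hxy : y * x = x * y * z) (A B : ℕ) {c : E} (hc : c ∈ Cen x y) :
    (x ^ A * y ^ B * c) * x = x * (x ^ A * y ^ B * c) * z ^ B := by
  have h1 := swap_pow_left h.zc hxy B
  have h2 : x ^ A * x = x * x ^ A := (Commute.refl x).pow_left A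
  have h3 : c * x = x * c := hc.1
  calc (x ^ A * y ^ B * c) * x = x ^ A * y ^ B * (c * x) := by simp only [mul_assoc]
    _ = x ^ A * y ^ B * (x * c) := by rw [h3]
    _ = x ^ A * (y ^ B * x) * c := by simp only [mul_assoc]
    _ = x ^ A * (x * y ^ B * z ^ B) * c := by rw [h1]
    _ = (x ^ A * x) * y ^ B * (z ^ B * c) := by simp only [mul_assoc]
    _ = (x * x ^ A) * y ^ B * (c * z ^ B) := by rw [h2, h.zk']
    _ = x * (x ^ A * y ^ B * c) * z ^ B := by simp only [mul_assoc]

/-- every element has a normal form. -/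
theorem decomp (h : XS p E z) (hxy : y * x = x * y * z) (e : E) :
    ∃ A B : ℕ, ∃ c ∈ Cen x y, e = x ^ A * y ^ B * c := by
  obtain ⟨A, hA⟩ := h.comm e y
  obtain ⟨B, hB⟩ := h.comm x e
  refine ⟨A, B, (x ^ A * y ^ B)⁻¹ * e, ?_, by group⟩
  set g := x ^ A * y ^ B with hg
  set c := g⁻¹ * e with hc
  have he : e = g * c := by rw [hc]; group
  have g1 : y * g = g * y * z ^ A := by
    have := h.rel_y hxy A B (Cen x y).one_mem
    simpa using this
  have g2 : g * x = x * g * z ^ B := by
    have := h.rel_x hxy A B (Cen x y).one_mem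
    simpa using this
  constructor
  · -- c commutes with x
    change c * x = x * c
    apply mul_left_cancel (a := g)
    have e1 : g * (c * x) = x * g * c * z ^ B := by
      rw [← mul_assoc, ← he, hB, he]; simp only [mul_assoc]
    have e2 : g * (x * c) = x * g * c * z ^ B := by
      rw [← mul_assoc, g2, mul_assoc (x * g), h.zk']; simp only [mul_assoc]
    rw [e1, e2]
  · change c * y = y * c
    apply mul_left_cancel (a := g)
    apply mul_right_cancel (b := z ^ A)
    have e1 : g * (c * y) * z ^ A = y * e := by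
      rw [hA, he]; simp only [mul_assoc]
    have e2 : g * (y * c) * z ^ A = y * e := by
      calc g * (y * c) * z ^ A = g * y * (c * z ^ A) := by simp only [mul_assoc]
        _ = g * y * (z ^ A * c) := by rw [h.zk']
        _ = (g * y * z ^ A) * c := by simp only [mul_assoc]
        _ = y * g * c := by rw [← g1]
        _ = y * e := by rw [mul_assoc, ← he]
    rw [e1, e2]

/-- the normal form map. -/
def Phi (p : ℕ) (x y : E) : ZMod p × ZMod p × Cen x y → E :=
  fun t => x ^ t.1.val * y ^ t.2.1.val * (t.2.2 : E)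

theorem pow_split (_h : XS p E z) {g : E} {α : ℕ} (hg : g ^ p = z ^ α) (n : ℕ) :
    g ^ n = g ^ (n % p) * z ^ (α * (n / p)) := by
  conv_lhs => rw [← Nat.mod_add_div n p]
  rw [pow_add, pow_mul, hg, ← pow_mul]

theorem Phi_inj [Fact p.Prime] (h : XS p E z) (hxy : y * x = x * y * z) :
    Function.Injective (Phi p x y) := by
  rintro ⟨a, b, c⟩ ⟨a', b', c'⟩ heq
  simp only [Phi] at heq
  have ha : a = a' := by
    have e1 := h.rel_y hxy a.val b.val c.2
    have e2 := h.rel_y hxy a'.val b'.val c'.2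
    rw [heq, e2] at e1
    have e3 := mul_left_cancel e1
    exact ZMod.val_injective p (h.zpow_inj (ZMod.val_lt a) (ZMod.val_lt a') e3.symm)
  have hb : b = b' := by
    have e1 := h.rel_x hxy a.val b.val c.2
    have e2 := h.rel_x hxy a'.val b'.val c'.2
    rw [heq, e2] at e1
    have e3 := mul_left_cancel e1
    exact ZMod.val_injective p (h.zpow_inj (ZMod.val_lt b) (ZMod.val_lt b') e3.symm)
  subst ha hb
  have hc : (c : E) = c' := mul_left_cancel heq
  rw [Subtype.ext hc]

theorem Phi_surj [Fact p.Prime] (h : XS p E z) (hxy : y * x = x * y * z) :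
    Function.Surjective (Phi p x y) := by
  intro e
  obtain ⟨A, B, c, hc, rfl⟩ := h.decomp hxy e
  obtain ⟨α, hα⟩ := h.pw x
  obtain ⟨β, hβ⟩ := h.pw y
  refine ⟨(((A : ℕ) : ZMod p), ((B : ℕ) : ZMod p),
    ⟨z ^ (α * (A / p)) * z ^ (β * (B / p)) * c,
      (Cen x y).mul_mem ((Cen x y).mul_mem (h.zpow_mem x y _) (h.zpow_mem x y _)) hc⟩), ?_⟩
  simp only [Phi, ZMod.val_natCast]
  rw [h.pow_split hα A, h.pow_split hβ B]
  set u := z ^ (α * (A / p)) with hu
  set v := z ^ (β * (B / p)) with hv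
  have hu' : ∀ g, u * g = g * u := fun g => h.zk' _ g
  calc x ^ (A % p) * y ^ (B % p) * (u * v * c)
      = x ^ (A % p) * (y ^ (B % p) * u) * v * c := by simp only [mul_assoc]
    _ = x ^ (A % p) * (u * y ^ (B % p)) * v * c := by rw [hu']
    _ = x ^ (A % p) * u * (y ^ (B % p) * v) * c := by simp only [mul_assoc]

theorem Phi_bij [Fact p.Prime] (h : XS p E z) (hxy : y * x = x * y * z) :
    Function.Bijective (Phi p x y) := ⟨h.Phi_inj hxy, h.Phi_surj hxy⟩

/-- the exponent of `z` in the multiplication rule. -/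
def ex (p α β : ℕ) (a b a' b' : ZMod p) : ℕ :=
  α * ((a.val + a'.val) / p) + β * ((b.val + b'.val) / p) + a'.val * b.val

/-- the multiplication rule for normal forms. -/
theorem mulRule [Fact p.Prime] (h : XS p E z) (hxy : y * x = x * y * z) {α β : ℕ}
    (hα : x ^ p = z ^ α) (hβ : y ^ p = z ^ β) (a b a' b' : ZMod p) (c c' : Cen x y) :
    Phi p x y (a, b, c) * Phi p x y (a', b', c') =
      Phi p x y (a + a', b + b', ⟨z ^ ex p α β a b a' b', h.zpow_mem x y _⟩ * c * c') := by
  simp only [Phi, Subgroup.coe_mul, ZMod.val_add]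
  set A := a.val
  set B := b.val
  set A' := a'.val
  set B' := b'.val
  have c1 : (c : E) * x ^ A' = x ^ A' * c := c.2.1.pow_right A'
  have c2 : (c : E) * y ^ B' = y ^ B' * c := c.2.2.pow_right B'
  have s1 : y ^ B * x ^ A' = x ^ A' * y ^ B * z ^ (A' * B) := by
    have h1 := swap_pow_right h.zc hxy A'
    have h2 := swap_pow_left (fun g => h.zk' A' g) h1 B
    rw [h2, ← pow_mul]
  have p1 := h.pow_split hα (A + A')
  have p2 := h.pow_split hβ (B + B')
  set u := z ^ (α * ((A + A') / p)) with hu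
  set v := z ^ (β * ((B + B') / p)) with hv
  set w := z ^ (A' * B) with hw
  have hu' : ∀ g, u * g = g * u := fun g => h.zk' _ g
  have hv' : ∀ g, v * g = g * v := fun g => h.zk' _ g
  have hw' : ∀ g, w * g = g * w := fun g => h.zk' _ g
  have hz : z ^ ex p α β a b a' b' = u * v * w := by
    rw [ex, pow_add, pow_add]
  rw [hz]
  calc x ^ A * y ^ B * ↑c * (x ^ A' * y ^ B' * ↑c')
      = x ^ A * y ^ B * (↑c * x ^ A') * y ^ B' * ↑c' := by simp only [mul_assoc]
    _ = x ^ A * y ^ B * (x ^ A' * ↑c) * y ^ B' * ↑c' := by rw [c1]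
    _ = x ^ A * (y ^ B * x ^ A') * (↑c * y ^ B') * ↑c' := by simp only [mul_assoc]
    _ = x ^ A * (x ^ A' * y ^ B * w) * (y ^ B' * ↑c) * ↑c' := by rw [s1, c2]
    _ = (x ^ A * x ^ A') * y ^ B * (w * y ^ B') * ↑c * ↑c' := by simp only [mul_assoc]
    _ = (x ^ A * x ^ A') * y ^ B * (y ^ B' * w) * ↑c * ↑c' := by rw [hw']
    _ = x ^ (A + A') * y ^ (B + B') * w * ↑c * ↑c' := by
      rw [pow_add, pow_add]; simp only [mul_assoc]
    _ = x ^ ((A + A') % p) * u * (y ^ ((B + B') % p) * v) * w * ↑c * ↑c' := by rw [p1, p2]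
    _ = x ^ ((A + A') % p) * (u * y ^ ((B + B') % p)) * v * w * ↑c * ↑c' := by
      simp only [mul_assoc]
    _ = x ^ ((A + A') % p) * (y ^ ((B + B') % p) * u) * v * w * ↑c * ↑c' := by rw [hu']
    _ = x ^ ((A + A') % p) * y ^ ((B + B') % p) * (u * v * w * ↑c * ↑c') := by
      simp only [mul_assoc]

/-- the centraliser of a non-commuting pair is again of the same type. -/
theorem cen_xs (h : XS p E z) (hxy : y * x = x * y * z) :
    XS p (Cen x y) ⟨z, h.z_mem x y⟩ where
  ord := by rw [Subgroup.orderOf_mk, h.ord]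
  zc := fun g => Subtype.ext (h.zc g)
  cen := by
    intro w hw
    obtain ⟨k, hk⟩ := h.cen (w : E) (by
      intro g
      obtain ⟨A, B, c, hc, rfl⟩ := h.decomp hxy g
      have h1 : Commute (w : E) (x ^ A) := w.2.1.pow_right A
      have h2 : Commute (w : E) (y ^ B) := w.2.2.pow_right B
      have h3 : Commute (w : E) c := congrArg Subtype.val (hw ⟨c, hc⟩)
      exact (h1.mul_right h2).mul_right h3)
    exact ⟨k, Subtype.ext hk⟩
  comm := by
    intro g g'
    obtain ⟨k, hk⟩ := h.comm (g : E) (g' : E)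
    exact ⟨k, Subtype.ext hk⟩
  pw := by
    intro g
    obtain ⟨k, hk⟩ := h.pw (g : E)
    exact ⟨k, Subtype.ext hk⟩

theorem card_eq [Fact p.Prime] (h : XS p E z) (hxy : y * x = x * y * z) :
    Nat.card E = p * (p * Nat.card (Cen x y)) := by
  rw [← Nat.card_congr (Equiv.ofBijective _ (h.Phi_bij hxy)), Nat.card_prod, Nat.card_prod,
    Nat.card_zmod]

/-- isomorphism from matching pairs. -/
theorem iso_of_pair [Fact p.Prime] {E' : Type*} [Group E'] {z' x' y' : E'}
    (h : XS p E z) (h' : XS p E' z') (hxy : y * x = x * y * z) (hxy' : y' * x' = x' * y' * z')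
    {α β : ℕ} (hα : x ^ p = z ^ α) (hβ : y ^ p = z ^ β) (hα' : x' ^ p = z' ^ α)
    (hβ' : y' ^ p = z' ^ β) (ψ : Cen x y ≃* Cen x' y')
    (hψ : ψ ⟨z, h.z_mem x y⟩ = ⟨z', h'.z_mem x' y'⟩) :
    ∃ F : E ≃* E', F z = z' := by
  let e1 := Equiv.ofBijective _ (h.Phi_bij hxy)
  let e2 := Equiv.ofBijective _ (h'.Phi_bij hxy')
  let mid : ZMod p × ZMod p × Cen x y ≃ ZMod p × ZMod p × Cen x' y' :=
    Equiv.prodCongr (Equiv.refl _) (Equiv.prodCongr (Equiv.refl _) ψ.toEquiv)
  let F : E ≃ E' := (e1.symm.trans mid).trans e2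
  have hF : ∀ a b c, F (Phi p x y (a, b, c)) = Phi p x' y' (a, b, ψ c) := by
    intro a b c
    have : e1.symm (Phi p x y (a, b, c)) = (a, b, c) := e1.symm_apply_apply (a, b, c)
    change e2 (mid (e1.symm (Phi p x y (a, b, c)))) = _
    rw [this]
    rfl
  have hmul : ∀ u v, F (u * v) = F u * F v := by
    intro u v
    obtain ⟨⟨a, b, c⟩, rfl⟩ := h.Phi_surj hxy u
    obtain ⟨⟨a', b', c'⟩, rfl⟩ := h.Phi_surj hxy v
    rw [h.mulRule hxy hα hβ, hF, hF, hF, h'.mulRule hxy' hα' hβ', map_mul, map_mul]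
    congr 4
    have : (⟨z ^ ex p α β a b a' b', h.zpow_mem x y _⟩ : Cen x y)
        = (⟨z, h.z_mem x y⟩ : Cen x y) ^ ex p α β a b a' b' := Subtype.ext rfl
    rw [this, map_pow, hψ]
    exact Subtype.ext rfl
  refine ⟨MulEquiv.mk' F hmul, ?_⟩
  have hz : z = Phi p x y (0, 0, ⟨z, h.z_mem x y⟩) := by simp [Phi]
  change F z = z'
  rw [hz, hF, hψ]
  simp [Phi]

/-- normalising a non-commuting pair. -/
theorem exists_pair [Fact p.Prime] (h : XS p E z) {x g : E} (hne : g * x ≠ x * g) :
    ∃ y, y * x = x * y * z := by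
  have hp : p.Prime := Fact.out
  obtain ⟨k, hk⟩ := h.comm x g
  have hkp : ¬ p ∣ k := by
    intro hd
    apply hne
    have : z ^ k = 1 := by
      rw [← h.ord] at hd
      exact orderOf_dvd_iff_pow_eq_one.mp hd
    rw [hk, this, mul_one]
  have hcop : Nat.Coprime k p := ((Nat.Prime.coprime_iff_not_dvd hp).mpr hkp).symm
  obtain ⟨j, hj⟩ := Nat.exists_mul_mod_eq_one_of_coprime hcop hp.one_lt
  refine ⟨g ^ j, ?_⟩
  have h1 := swap_pow_left (fun t => h.zk' k t) hk j
  rw [h1, ← pow_mul]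
  congr 1
  have : z ^ (k * j) = z ^ ((k * j) % p) := by
    rw [← h.ord, pow_mod_orderOf]
  rw [this, hj.2, pow_one]

end XS

end Cfsg.Agent.Lib.Helper29.Extra
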