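import Mathlib
import Cfsg.Prelude.Def_Transfer
import Cfsg.Agent.Lib.Helper1.Frattini
import Cfsg.Agent.Lib.Helper29.Extra

/-! Extraspecial groups: classification for exponent `p` and for `p = 2`. -/

namespace Cfsg.Agent.Lib.Helper29.Extra

open scoped commutatorElement

/-- an extraspecial group is of type `XS` and non-abelian. -/
theorem of_extraspecial {p : ℕ} [Fact p.Prime] {E : Type*} [Group E] [Finite E]
    (hE : Cfsg.IsExtraspecial p E) : ∃ z : E, XS p E z ∧ ∃ g x : E, g * x ≠ x * g := by
  have hp : p.Prime := Fact.out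
  obtain ⟨⟨hpg, hfr, hcm⟩, hcard⟩ := hE
  haveI : Nontrivial (Subgroup.center E) := by
    rw [← Finite.one_lt_card_iff_nontrivial, hcard]; exact hp.one_lt
  obtain ⟨z, hz1⟩ := exists_ne (1 : Subgroup.center E)
  have hpowers : ∀ w : E, w ∈ Subgroup.center E → ∃ k : ℕ, w = (z : E) ^ k := by
    intro w hw
    have h1 : (⟨w, hw⟩ : Subgroup.center E) ∈ Subgroup.zpowers z :=
      mem_zpowers_of_prime_card hcard hz1
    rw [← mem_powers_iff_mem_zpowers] at h1
    obtain ⟨k, hk⟩ := h1
    exact ⟨k, (congrArg Subtype.val hk).symm⟩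
  refine ⟨z, ⟨?_, ?_, ?_, ?_, ?_⟩, ?_⟩
  · rw [Subgroup.orderOf_coe]
    apply orderOf_eq_prime
    · rw [← hcard]; exact pow_card_eq_one'
    · exact hz1
  · intro g
    exact (Subgroup.mem_center_iff.mp z.2 g).symm
  · intro w hw
    exact hpowers w (Subgroup.mem_center_iff.mpr (fun g => (hw g).symm))
  · intro g h
    have h1 : ⁅h⁻¹, g⁻¹⁆ ∈ commutator E :=
      Subgroup.commutator_mem_commutator (Subgroup.mem_top _) (Subgroup.mem_top _)
    rw [hcm] at h1
    obtain ⟨k, hk⟩ := hpowers _ h1
    refine ⟨k, ?_⟩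
    rw [← hk, commutatorElement_def]
    group
  · intro g
    have h1 := Cfsg.Agent.Lib.Helper1.pgroup_pow_mem_frattini hpg g
    rw [hfr] at h1
    exact hpowers _ h1
  · by_contra hcon
    push Not at hcon
    have h1 : commutator E = ⊥ := by
      rw [commutator_def, Subgroup.commutator_eq_bot_iff_le_centralizer]
      intro a _
      rw [Subgroup.mem_centralizer_iff]
      intro b _
      exact hcon b a
    rw [← hcm, h1, Subgroup.card_bot] at hcard
    exact hp.one_lt.ne hcard

namespace XS

variable {p : ℕ} {E : Type*} [Group E] {z : E}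

theorem abelian_zpowers (h : XS p E z) (hab : ∀ g x : E, g * x = x * g) (w : E) :
    w ∈ Subgroup.zpowers z := by
  obtain ⟨k, hk⟩ := h.cen w (hab w)
  exact ⟨k, by simp [hk]⟩

theorem abelian_card (h : XS p E z) (hab : ∀ g x : E, g * x = x * g) : Nat.card E = p := by
  have h1 : Subgroup.zpowers z = ⊤ := by
    rw [eq_top_iff]; intro w _; exact h.abelian_zpowers hab w
  rw [← h.ord, ← Nat.card_zpowers, h1, Subgroup.card_top]

theorem zpowers_of_card [Finite E] (h : XS p E z) (hc : Nat.card E = p) (w : E) :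
    w ∈ Subgroup.zpowers z := by
  have h1 : Subgroup.zpowers z = ⊤ := by
    apply Subgroup.eq_top_of_card_eq
    rw [Nat.card_zpowers, h.ord, hc]
  rw [h1]; trivial

theorem card_cen_pos [Finite E] (x y : E) : 0 < Nat.card (Cen x y) := Nat.card_pos

theorem card_gt [Fact p.Prime] [Finite E] (h : XS p E z) {x y : E} (hxy : y * x = x * y * z) :
    p < Nat.card E := by
  have hp : p.Prime := Fact.out
  rw [h.card_eq hxy]
  have h1 := card_cen_pos x y
  have h2 := hp.two_le
  nlinarith [Nat.mul_le_mul h2 h1]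

theorem card_cen_lt [Fact p.Prime] [Finite E] (h : XS p E z) {x y : E}
    (hxy : y * x = x * y * z) : Nat.card (Cen x y) < Nat.card E := by
  have hp : p.Prime := Fact.out
  rw [h.card_eq hxy]
  have h1 := card_cen_pos x y
  have h2 := hp.two_le
  have h3 : 2 * (2 * Nat.card (Cen x y)) ≤ p * (p * Nat.card (Cen x y)) :=
    Nat.mul_le_mul h2 (Nat.mul_le_mul h2 le_rfl)
  omega

end XS

/-- exponent `p`: determined by the order. -/
theorem iso_exp {p : ℕ} [Fact p.Prime] (n : ℕ) :
    ∀ (E : Type*) [Group E] [Finite E] (z : E) (E' : Type*) [Group E'] [Finite E'] (z' : E'),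
      XS p E z → XS p E' z' → (∀ g : E, g ^ p = 1) → (∀ g : E', g ^ p = 1) →
      Nat.card E = n → Nat.card E' = n → ∃ F : E ≃* E', F z = z' := by
  have hp : p.Prime := Fact.out
  induction n using Nat.strong_induction_on with
  | _ n ih =>
    intro E _ _ z E' _ _ z' h h' he he' hc hc'
    by_cases hab : ∀ g x : E, g * x = x * g
    · have h1 := h.abelian_card hab
      refine ⟨mulEquivOfOrderOfEq (h.abelian_zpowers hab)
        (h'.zpowers_of_card (by rw [hc', ← hc, h1])) (by rw [h.ord, h'.ord]), ?_⟩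
      simp
    · push Not at hab
      obtain ⟨g, x, hgx⟩ := hab
      obtain ⟨y, hxy⟩ := h.exists_pair hgx
      have hab' : ¬ ∀ g x : E', g * x = x * g := by
        intro hab'
        have h1 := h'.abelian_card hab'
        have h2 := h.card_gt hxy
        omega
      push Not at hab'
      obtain ⟨g', x', hgx'⟩ := hab'
      obtain ⟨y', hxy'⟩ := h'.exists_pair hgx'
      have k1 := h.card_eq hxy
      have k2 := h'.card_eq hxy'
      have k3 : Nat.card (Cen x y) = Nat.card (Cen x' y') := by
        have : p * (p * Nat.card (Cen x y)) = p * (p * Nat.card (Cen x' y')) := by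
          rw [← k1, ← k2, hc, hc']
        exact Nat.eq_of_mul_eq_mul_left hp.pos (Nat.eq_of_mul_eq_mul_left hp.pos this)
      obtain ⟨ψ, hψ⟩ := ih (Nat.card (Cen x y)) (hc ▸ h.card_cen_lt hxy) (Cen x y) _ (Cen x' y') _
        (h.cen_xs hxy) (h'.cen_xs hxy') (fun g => Subtype.ext (he g)) (fun g => Subtype.ext (he' g))
        rfl k3.symm
      exact h.iso_of_pair h' hxy hxy' (α := 0) (β := 0) (by rw [he, pow_zero])
        (by rw [he, pow_zero]) (by rw [he', pow_zero]) (by rw [he', pow_zero]) ψ hψ

end Cfsg.Agent.Lib.Helper29.Extra
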