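import Mathlib
import Cfsg.Agent.Lib.Helper29.Extra2

/-! Extraspecial 2-groups: counting square roots of the identity, classification. -/

namespace Cfsg.Agent.Lib.Helper29.Extra

/-- number of solutions of `e ^ 2 = 1`. -/
noncomputable def NN (E : Type*) [Group E] : ℕ := Nat.card {e : E // e ^ 2 = 1}

theorem sum_zmod2 (f : ZMod 2 → ℕ) : ∑ a, f a = f 0 + f 1 := Fin.sum_univ_two f

namespace XS

variable {E : Type*} [Group E] {z : E}

theorem zz (h : XS 2 E z) : z * z = 1 := by
  have := h.zp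
  rwa [pow_two] at this

theorem z_ne (h : XS 2 E z) : z ≠ 1 := by
  intro h1
  have := h.ord
  rw [h1, orderOf_one] at this
  norm_num at this

theorem zpow_cases (h : XS 2 E z) (k : ℕ) : (Even k ∧ z ^ k = 1) ∨ (Odd k ∧ z ^ k = z) := by
  rcases Nat.even_or_odd k with hk | hk
  · left
    obtain ⟨j, rfl⟩ := hk
    refine ⟨⟨j, rfl⟩, ?_⟩
    rw [← two_mul, pow_mul, h.zp, one_pow]
  · right
    obtain ⟨j, rfl⟩ := hk
    refine ⟨⟨j, rfl⟩, ?_⟩
    rw [pow_add, pow_mul, h.zp, one_pow, one_mul, pow_one]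

theorem sq_cases (h : XS 2 E z) (g : E) : g ^ 2 = 1 ∨ g ^ 2 = z := by
  obtain ⟨k, hk⟩ := h.pw g
  rcases h.zpow_cases k with ⟨-, h1⟩ | ⟨-, h1⟩
  · left; rw [hk, h1]
  · right; rw [hk, h1]

/-- number of `c` with `z ^ k * c ^ 2 = 1`. -/
theorem count_fiber [Finite E] (h : XS 2 E z) (k : ℕ) :
    Nat.card {c : E // z ^ k * c * c = 1} = if Even k then NN E else Nat.card E - NN E := by
  classical
  haveI := Fintype.ofFinite E
  rcases h.zpow_cases k with ⟨hk, h1⟩ | ⟨hk, h1⟩
  · rw [if_pos hk, NN]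
    apply Nat.card_congr
    apply Equiv.subtypeEquivRight
    intro c
    rw [h1, one_mul, pow_two]
  · rw [if_neg (Nat.not_even_iff_odd.mpr hk), NN]
    have e1 : Nat.card {c : E // z ^ k * c * c = 1} = Nat.card {c : E // ¬ c ^ 2 = 1} := by
      apply Nat.card_congr
      apply Equiv.subtypeEquivRight
      intro c
      rw [h1, mul_assoc, ← pow_two]
      constructor
      · intro h2 h3
        rw [h3, mul_one] at h2
        exact h.z_ne h2
      · intro h2
        rw [(h.sq_cases c).resolve_left h2, h.zz]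
    rw [e1, Nat.card_eq_fintype_card, Nat.card_eq_fintype_card, Nat.card_eq_fintype_card,
      Fintype.card_subtype_compl]

variable {x y : E}

theorem sq_Phi (h : XS 2 E z) (hxy : y * x = x * y * z) {α β : ℕ}
    (hα : x ^ 2 = z ^ α) (hβ : y ^ 2 = z ^ β) (a b : ZMod 2) (c : Cen x y) :
    (Phi 2 x y (a, b, c)) ^ 2 = z ^ ex 2 α β a b a b * c * c := by
  haveI : Fact (Nat.Prime 2) := ⟨Nat.prime_two⟩
  rw [pow_two, h.mulRule hxy hα hβ, CharTwo.add_self_eq_zero, CharTwo.add_self_eq_zero]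
  simp [Phi]

/-- the counting formula. -/
theorem count [Finite E] (h : XS 2 E z) (hxy : y * x = x * y * z) {α β : ℕ}
    (hα : x ^ 2 = z ^ α) (hβ : y ^ 2 = z ^ β) :
    NN E = ∑ a : ZMod 2, ∑ b : ZMod 2,
      (if Even (ex 2 α β a b a b) then NN (Cen x y) else Nat.card (Cen x y) - NN (Cen x y)) := by
  classical
  haveI : Fact (Nat.Prime 2) := ⟨Nat.prime_two⟩
  have hC := h.cen_xs hxy
  let e1 := Equiv.ofBijective _ (h.Phi_bij hxy)
  have s1 : NN E = Nat.card {t : ZMod 2 × ZMod 2 × Cen x y //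
      z ^ ex 2 α β t.1 t.2.1 t.1 t.2.1 * (t.2.2 : E) * (t.2.2 : E) = 1} := by
    rw [NN]
    apply Nat.card_congr
    symm
    apply e1.subtypeEquiv
    rintro ⟨a, b, c⟩
    change _ ↔ (Phi 2 x y (a, b, c)) ^ 2 = 1
    rw [h.sq_Phi hxy hα hβ]
  have s2 : Nat.card {t : ZMod 2 × ZMod 2 × Cen x y //
      z ^ ex 2 α β t.1 t.2.1 t.1 t.2.1 * (t.2.2 : E) * (t.2.2 : E) = 1}
      = ∑ a : ZMod 2, ∑ b : ZMod 2,
        Nat.card {c : Cen x y // z ^ ex 2 α β a b a b * (c : E) * (c : E) = 1} := by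
    rw [Nat.card_congr (Equiv.subtypeProdEquivSigmaSubtype
      (fun (a : ZMod 2) (s : ZMod 2 × Cen x y) =>
        z ^ ex 2 α β a s.1 a s.1 * (s.2 : E) * (s.2 : E) = 1)), Nat.card_sigma]
    apply Finset.sum_congr rfl
    intro a _
    rw [Nat.card_congr (Equiv.subtypeProdEquivSigmaSubtype
      (fun (b : ZMod 2) (c : Cen x y) =>
        z ^ ex 2 α β a b a b * (c : E) * (c : E) = 1)), Nat.card_sigma]
  rw [s1, s2]
  apply Finset.sum_congr rfl
  intro a _
  apply Finset.sum_congr rfl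
  intro b _
  rw [← hC.count_fiber]
  apply Nat.card_congr
  apply Equiv.subtypeEquivRight
  intro c
  constructor
  · intro h1
    exact Subtype.ext h1
  · intro h1
    exact congrArg Subtype.val h1

theorem NN_le [Finite E] : NN E ≤ Nat.card E := by
  rw [NN]
  exact Nat.card_le_card_of_injective _ Subtype.val_injective

theorem NN_pos [Finite E] : 0 < NN E := by
  rw [NN]
  haveI : Nonempty {e : E // e ^ 2 = 1} := ⟨⟨1, one_pow 2⟩⟩
  exact Nat.card_pos

/-- hyperbolic pair: `N(E) = 2 N(C) + |C|`. -/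
theorem count_hyp [Finite E] (h : XS 2 E z) (hxy : y * x = x * y * z)
    (hα : x ^ 2 = 1) (hβ : y ^ 2 = 1) :
    NN E = 2 * NN (Cen x y) + Nat.card (Cen x y) := by
  have h1 := h.count hxy (α := 0) (β := 0) (by rw [hα, pow_zero]) (by rw [hβ, pow_zero])
  rw [sum_zmod2, sum_zmod2, sum_zmod2] at h1
  have v1 : (1 : ZMod 2).val = 1 := rfl
  have v0 : (0 : ZMod 2).val = 0 := rfl
  simp only [ex, v0, v1] at h1
  norm_num at h1
  have := NN_le (E := Cen x y)
  omega

/-- elliptic pair: `N(E) + 2 N(C) = 3 |C|`. -/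
theorem count_ell [Finite E] (h : XS 2 E z) (hxy : y * x = x * y * z)
    (hα : x ^ 2 = z) (hβ : y ^ 2 = z) :
    NN E + 2 * NN (Cen x y) = 3 * Nat.card (Cen x y) := by
  have h1 := h.count hxy (α := 1) (β := 1) (by rw [hα, pow_one]) (by rw [hβ, pow_one])
  rw [sum_zmod2, sum_zmod2, sum_zmod2] at h1
  have v1 : (1 : ZMod 2).val = 1 := rfl
  have v0 : (0 : ZMod 2).val = 0 := rfl
  simp only [ex, v0, v1] at h1
  norm_num at h1
  have := NN_le (E := Cen x y)
  omega

/-- a non-central involution gives a hyperbolic pair. -/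
theorem exists_hyp (h : XS 2 E z) {x : E} (hx : x ^ 2 = 1) (hx1 : x ≠ 1) (hxz : x ≠ z) :
    ∃ y, y * x = x * y * z ∧ y ^ 2 = 1 := by
  haveI : Fact (Nat.Prime 2) := ⟨Nat.prime_two⟩
  have hnc : ∃ g, g * x ≠ x * g := by
    by_contra hcon
    push Not at hcon
    obtain ⟨k, hk⟩ := h.cen x (fun g => (hcon g).symm)
    rcases h.zpow_cases k with ⟨-, h1⟩ | ⟨-, h1⟩
    · exact hx1 (hk.trans h1)
    · exact hxz (hk.trans h1)
  obtain ⟨g, hg⟩ := hnc
  obtain ⟨y, hxy⟩ := h.exists_pair hg
  rcases h.sq_cases y with hy | hy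
  · exact ⟨y, hxy, hy⟩
  · refine ⟨y * x, ?_, ?_⟩
    · calc y * x * x = (x * y * z) * x := by rw [hxy]
        _ = x * y * (z * x) := by simp only [mul_assoc]
        _ = x * y * (x * z) := by rw [h.zc]
        _ = x * (y * x) * z := by simp only [mul_assoc]
    · have hxx : x * x = 1 := by rwa [pow_two] at hx
      have hyy : y * y = z := by rwa [pow_two] at hy
      calc (y * x) ^ 2 = y * x * (y * x) := pow_two _
        _ = y * x * (x * y * z) := by rw [hxy]
        _ = y * (x * x) * y * z := by simp only [mul_assoc]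
        _ = 1 := by rw [hxx, mul_one, hyy, h.zz]

/-- no non-central involution: exactly two solutions. -/
theorem NN_two (h : XS 2 E z) (hB : ∀ x : E, x ^ 2 = 1 → x = 1 ∨ x = z) : NN E = 2 := by
  rw [NN, Nat.card_eq_two_iff]
  refine ⟨⟨1, one_pow 2⟩, ⟨z, h.zp⟩, ?_, ?_⟩
  · intro h1
    exact h.z_ne (congrArg Subtype.val h1).symm
  · rw [Set.eq_univ_iff_forall]
    rintro ⟨e, he⟩
    rcases hB e he with h1 | h1
    · left; exact Subtype.ext h1
    · right; exact Subtype.ext h1

theorem two_le_card [Finite E] (h : XS 2 E z) : 2 ≤ Nat.card E := by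
  rw [← h.ord]
  exact orderOf_le_card

end XS

/-- dichotomy used in both inductions. -/
theorem XS.cases2 {E : Type*} [Group E] [Finite E] {z : E} (h : XS 2 E z)
    (hab : ¬ ∀ g x : E, g * x = x * g) :
    (∃ x y : E, y * x = x * y * z ∧ x ^ 2 = 1 ∧ y ^ 2 = 1 ∧ 2 < NN E) ∨
    (∃ x y : E, y * x = x * y * z ∧ x ^ 2 = z ∧ y ^ 2 = z ∧ NN E = 2) := by
  haveI : Fact (Nat.Prime 2) := ⟨Nat.prime_two⟩
  by_cases hA : ∃ x : E, x ^ 2 = 1 ∧ x ≠ 1 ∧ x ≠ z
  · left
    obtain ⟨x, hx, hx1, hxz⟩ := hA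
    obtain ⟨y, hxy, hy⟩ := h.exists_hyp hx hx1 hxz
    refine ⟨x, y, hxy, hx, hy, ?_⟩
    rw [h.count_hyp hxy hx hy]
    have h1 := XS.NN_pos (E := Cen x y)
    have h2 := (h.cen_xs hxy).two_le_card
    omega
  · right
    push Not at hA
    have hB : ∀ x : E, x ^ 2 = 1 → x = 1 ∨ x = z := by
      intro x hx
      by_contra hcon
      push Not at hcon
      exact hcon.2 (hA x hx hcon.1)
    push Not at hab
    obtain ⟨g, x, hgx⟩ := hab
    obtain ⟨y, hxy⟩ := h.exists_pair hgx
    have hne : y * x ≠ x * y := by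
      intro h1
      rw [h1] at hxy
      exact h.z_ne (mul_left_cancel (hxy.symm.trans (mul_one _).symm))
    refine ⟨x, y, hxy, ?_, ?_, h.NN_two hB⟩
    · refine (h.sq_cases x).resolve_left (fun h1 => ?_)
      rcases hB x h1 with h2 | h2
      · apply hne; rw [h2]; simp
      · apply hne; rw [h2]; exact (h.zc y).symm
    · refine (h.sq_cases y).resolve_left (fun h1 => ?_)
      rcases hB y h1 with h2 | h2
      · apply hne; rw [h2]; simp
      · apply hne; rw [h2]; exact h.zc x

/-- order and number of involutions. -/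
theorem order_count (n : ℕ) :
    ∀ (E : Type*) [Group E] [Finite E] (z : E), XS 2 E z → Nat.card E = n →
      ∃ m : ℕ, Nat.card E = 2 ^ (2 * m + 1) ∧
        (NN E = 2 ^ (2 * m) + 2 ^ m ∨ NN E + 2 ^ m = 2 ^ (2 * m)) := by
  haveI : Fact (Nat.Prime 2) := ⟨Nat.prime_two⟩
  induction n using Nat.strong_induction_on with
  | _ n ih =>
    intro E _ _ z h hc
    by_cases hab : ∀ g x : E, g * x = x * g
    · refine ⟨0, by rw [h.abelian_card hab]; norm_num, Or.inl ?_⟩
      rw [h.NN_two]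
      · norm_num
      · intro x _
        obtain ⟨k, hk⟩ := h.cen x (hab x)
        rcases h.zpow_cases k with ⟨-, h1⟩ | ⟨-, h1⟩
        · left; exact hk.trans h1
        · right; exact hk.trans h1
    · rcases h.cases2 hab with ⟨x, y, hxy, hx, hy, -⟩ | ⟨x, y, hxy, hx, hy, -⟩
      · obtain ⟨m, hm1, hm2⟩ := ih (Nat.card (Cen x y)) (hc ▸ h.card_cen_lt hxy) (Cen x y) _
          (h.cen_xs hxy) rfl
        have k1 := h.card_eq hxy
        have k2 := h.count_hyp hxy hx hy
        refine ⟨m + 1, ?_, ?_⟩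
        · rw [k1, hm1]; ring
        · have e1 : 2 ^ (2 * m + 1) = 2 * 2 ^ (2 * m) := by ring
          have e2 : 2 ^ (2 * (m + 1)) = 4 * 2 ^ (2 * m) := by ring
          have e3 : 2 ^ (m + 1) = 2 * 2 ^ m := by ring
          rw [e2, e3, k2, hm1, e1]
          rcases hm2 with h3 | h3
          · left; omega
          · right; omega
      · obtain ⟨m, hm1, hm2⟩ := ih (Nat.card (Cen x y)) (hc ▸ h.card_cen_lt hxy) (Cen x y) _
          (h.cen_xs hxy) rfl
        have k1 := h.card_eq hxy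
        have k2 := h.count_ell hxy hx hy
        refine ⟨m + 1, ?_, ?_⟩
        · rw [k1, hm1]; ring
        · have e1 : 2 ^ (2 * m + 1) = 2 * 2 ^ (2 * m) := by ring
          have e2 : 2 ^ (2 * (m + 1)) = 4 * 2 ^ (2 * m) := by ring
          have e3 : 2 ^ (m + 1) = 2 * 2 ^ m := by ring
          rw [hm1, e1] at k2
          rw [e2, e3]
          rcases hm2 with h3 | h3
          · right; omega
          · left; omega

/-- classification: order and number of involutions determine the group. -/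
theorem iso_two (n : ℕ) :
    ∀ (E : Type*) [Group E] [Finite E] (z : E) (E' : Type*) [Group E'] [Finite E'] (z' : E'),
      XS 2 E z → XS 2 E' z' → Nat.card E = n → Nat.card E' = n → NN E = NN E' →
      ∃ F : E ≃* E', F z = z' := by
  haveI : Fact (Nat.Prime 2) := ⟨Nat.prime_two⟩
  induction n using Nat.strong_induction_on with
  | _ n ih =>
    intro E _ _ z E' _ _ z' h h' hc hc' hN
    by_cases hab : ∀ g x : E, g * x = x * g
    · have h1 := h.abelian_card hab
      refine ⟨mulEquivOfOrderOfEq (h.abelian_zpowers hab)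
        (h'.zpowers_of_card (by rw [hc', ← hc, h1])) (by rw [h.ord, h'.ord]), ?_⟩
      simp
    · have hab' : ¬ ∀ g x : E', g * x = x * g := by
        intro hab'
        have h1 := h'.abelian_card hab'
        push Not at hab
        obtain ⟨g, x, hgx⟩ := hab
        obtain ⟨y, hxy⟩ := h.exists_pair hgx
        have h2 := h.card_gt hxy
        omega
      rcases h.cases2 hab with ⟨x, y, hxy, hx, hy, hn⟩ | ⟨x, y, hxy, hx, hy, hn⟩ <;>
      rcases h'.cases2 hab' with ⟨x', y', hxy', hx', hy', hn'⟩ | ⟨x', y', hxy', hx', hy', hn'⟩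
      · have k1 := h.card_eq hxy
        have k2 := h'.card_eq hxy'
        have k3 : Nat.card (Cen x y) = Nat.card (Cen x' y') := by omega
        have k4 := h.count_hyp hxy hx hy
        have k5 := h'.count_hyp hxy' hx' hy'
        obtain ⟨ψ, hψ⟩ := ih (Nat.card (Cen x y)) (hc ▸ h.card_cen_lt hxy) (Cen x y) _
          (Cen x' y') _ (h.cen_xs hxy) (h'.cen_xs hxy') rfl k3.symm (by omega)
        exact h.iso_of_pair h' hxy hxy' (α := 0) (β := 0) (by rw [hx, pow_zero])
          (by rw [hy, pow_zero]) (by rw [hx', pow_zero]) (by rw [hy', pow_zero]) ψ hψ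
      · omega
      · omega
      · have k1 := h.card_eq hxy
        have k2 := h'.card_eq hxy'
        have k3 : Nat.card (Cen x y) = Nat.card (Cen x' y') := by omega
        have k4 := h.count_ell hxy hx hy
        have k5 := h'.count_ell hxy' hx' hy'
        obtain ⟨ψ, hψ⟩ := ih (Nat.card (Cen x y)) (hc ▸ h.card_cen_lt hxy) (Cen x y) _
          (Cen x' y') _ (h.cen_xs hxy) (h'.cen_xs hxy') rfl k3.symm (by omega)
        exact h.iso_of_pair h' hxy hxy' (α := 1) (β := 1) (by rw [hx, pow_one])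
          (by rw [hy, pow_one]) (by rw [hx', pow_one]) (by rw [hy', pow_one]) ψ hψ

end Cfsg.Agent.Lib.Helper29.Extra
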