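import Mathlib
import Cfsg.Agent.Lib.Helper29.Extra3

/-! Extraspecial 2-groups: the orders of the largest elementary abelian subgroups. -/

namespace Cfsg.Agent.Lib.Helper29.Extra

/-- elementary abelian 2-subgroup. -/
def EA {E : Type*} [Group E] (A : Subgroup E) : Prop :=
  (∀ a ∈ A, ∀ b ∈ A, a * b = b * a) ∧ ∀ a ∈ A, a ^ 2 = 1

namespace XS

variable {E : Type*} [Group E] {z : E}

theorem noncomm_z (h : XS 2 E z) {a y : E} (hne : y * a ≠ a * y) : y * a = a * y * z := by
  obtain ⟨k, hk⟩ := h.comm a y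
  rcases h.zpow_cases k with ⟨-, h1⟩ | ⟨-, h1⟩
  · exfalso; apply hne; rw [hk, h1, mul_one]
  · rw [hk, h1]

/-- an elementary abelian subgroup containing `x` is at most twice its part in `Cen x y`. -/
theorem card_le_two_mul [Finite E] (h : XS 2 E z) {x y : E} (hxy : y * x = x * y * z)
    (A : Subgroup E) (hA : EA A) (hx : x ∈ A) :
    Nat.card A ≤ 2 * Nat.card (A.subgroupOf (Cen x y)) := by
  classical
  have hcx : ∀ a ∈ A, Commute a x := fun a ha => hA.1 a ha x hx
  have key : ∀ a ∈ A, ¬ Commute a y → x * a ∈ Cen x y := by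
    intro a ha hn
    have h1 : y * a = a * y * z := h.noncomm_z (fun hh => hn hh.symm)
    refine ⟨((Commute.refl x).mul_left (hcx a ha)), ?_⟩
    change x * a * y = y * (x * a)
    calc x * a * y = x * (a * y) * (z * z) := by rw [h.zz, mul_one, mul_assoc]
      _ = x * (a * y * z) * z := by simp only [mul_assoc]
      _ = x * (y * a) * z := by rw [h1]
      _ = x * y * (a * z) := by simp only [mul_assoc]
      _ = x * y * (z * a) := by rw [h.zc]
      _ = (x * y * z) * a := by simp only [mul_assoc]
      _ = y * (x * a) := by rw [← hxy, mul_assoc]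
  let f : A → Bool × (A.subgroupOf (Cen x y)) := fun a =>
    if hc : Commute (a : E) y then
      (false, ⟨⟨a, ⟨hcx a a.2, hc⟩⟩, a.2⟩)
    else
      (true, ⟨⟨x * a, key a a.2 hc⟩, A.mul_mem hx a.2⟩)
  have hf : Function.Injective f := by
    intro a b hab
    by_cases ha : Commute (a : E) y <;> by_cases hb : Commute (b : E) y
    · simp only [f, dif_pos ha, dif_pos hb] at hab
      have := congrArg (fun t => ((t.2 : Cen x y) : E)) hab
      exact Subtype.ext this
    · simp only [f, dif_pos ha, dif_neg hb] at hab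
      have := congrArg Prod.fst hab
      simp at this
    · simp only [f, dif_neg ha, dif_pos hb] at hab
      have := congrArg Prod.fst hab
      simp at this
    · simp only [f, dif_neg ha, dif_neg hb] at hab
      have := congrArg (fun t => ((t.2 : Cen x y) : E)) hab
      exact Subtype.ext (mul_left_cancel this)
  have := Nat.card_le_card_of_injective f hf
  rwa [Nat.card_prod, Nat.card_eq_fintype_card (α := Bool), Fintype.card_bool] at this

theorem EA_subgroupOf {A : Subgroup E} (hA : EA A) (C : Subgroup E) : EA (A.subgroupOf C) := by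
  constructor
  · intro a ha b hb
    exact Subtype.ext (hA.1 a ha b hb)
  · intro a ha
    exact Subtype.ext (hA.2 a ha)

end XS

/-- upper bounds. -/
theorem rank_upper (n : ℕ) :
    ∀ (E : Type*) [Group E] [Finite E] (z : E), XS 2 E z → Nat.card E = n →
      ∀ m : ℕ, Nat.card E = 2 ^ (2 * m + 1) → ∀ A : Subgroup E, EA A →
        (NN E = 2 ^ (2 * m) + 2 ^ m → Nat.card A ≤ 2 ^ (m + 1)) ∧
        (NN E + 2 ^ m = 2 ^ (2 * m) → Nat.card A ≤ 2 ^ m) := by
  haveI : Fact (Nat.Prime 2) := ⟨Nat.prime_two⟩
  induction n using Nat.strong_induction_on with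
  | _ n ih =>
    intro E _ _ z h hc m hm A hA
    by_cases hsmall : ∀ a ∈ A, a = 1 ∨ a = z
    · have h2 : Nat.card A ≤ 2 := by
        have hle : A ≤ Subgroup.zpowers z := by
          intro a ha
          rcases hsmall a ha with h1 | h1
          · rw [h1]; exact Subgroup.one_mem _
          · rw [h1]; exact Subgroup.mem_zpowers z
        have := Subgroup.card_le_of_le hle
        rwa [Nat.card_zpowers, h.ord] at this
      constructor
      · intro _
        have : 2 ^ 1 ≤ 2 ^ (m + 1) := Nat.pow_le_pow_right (by norm_num) (by omega)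
        omega
      · intro hN
        have hm1 : m ≠ 0 := by
          rintro rfl
          have := XS.NN_pos (E := E)
          norm_num at hN
          omega
        have : 2 ^ 1 ≤ 2 ^ m := Nat.pow_le_pow_right (by norm_num) (by omega)
        omega
    · push Not at hsmall
      obtain ⟨x, hxA, hx1, hxz⟩ := hsmall
      obtain ⟨y, hxy, hy⟩ := h.exists_hyp (hA.2 x hxA) hx1 hxz
      have k1 := h.card_eq hxy
      have k2 := h.count_hyp hxy (hA.2 x hxA) hy
      have k3 := h.card_le_two_mul hxy A hA hxA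
      have k4 := (h.cen_xs hxy).two_le_card
      obtain ⟨m', rfl⟩ : ∃ m', m = m' + 1 := by
        refine ⟨m - 1, ?_⟩
        have : m ≠ 0 := by
          rintro rfl
          norm_num at hm
          omega
        omega
      have e1 : 2 ^ (2 * (m' + 1) + 1) = 2 * (2 * 2 ^ (2 * m' + 1)) := by ring
      have hC : Nat.card (Cen x y) = 2 ^ (2 * m' + 1) := by
        rw [e1] at hm; omega
      obtain ⟨i1, i2⟩ := ih (Nat.card (Cen x y)) (hc ▸ h.card_cen_lt hxy) (Cen x y) _
        (h.cen_xs hxy) rfl m' hC (A.subgroupOf (Cen x y)) (XS.EA_subgroupOf hA _)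
      have e2 : 2 ^ (2 * m' + 1) = 2 * 2 ^ (2 * m') := by ring
      have e3 : 2 ^ (2 * (m' + 1)) = 4 * 2 ^ (2 * m') := by ring
      have e4 : 2 ^ (m' + 1) = 2 * 2 ^ m' := by ring
      have e5 : 2 ^ (m' + 1 + 1) = 4 * 2 ^ m' := by ring
      rw [hC, e2] at k2
      constructor
      · intro hN
        rw [e3, e4] at hN
        have := i1 (by omega)
        rw [e4] at this
        rw [e5]; omega
      · intro hN
        rw [e3, e4] at hN
        have := i2 (by omega)
        rw [e4]; omega

/-- extension of an elementary abelian subgroup of the centraliser by `x`. -/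
theorem XS.extend {E : Type*} [Group E] [Finite E] {z : E} (h : XS 2 E z) {x y : E}
    (hxy : y * x = x * y * z) (hx : x ^ 2 = 1) (A₀ : Subgroup (Cen x y)) (hA₀ : EA A₀) :
    ∃ A : Subgroup E, EA A ∧ Nat.card A = 2 * Nat.card A₀ := by
  classical
  have hxC : x ∉ Cen x y := by
    intro hh
    have h1 : x * y = y * x := hh.2
    rw [hxy] at h1
    exact h.z_ne (mul_left_cancel (h1.symm.trans (mul_one _).symm))
  have hx1 : x ≠ 1 := fun hh => hxC (hh ▸ (Cen x y).one_mem)
  have hox : orderOf x = 2 := orderOf_eq_prime hx hx1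
  let f1 : Subgroup.zpowers x →* E := (Subgroup.zpowers x).subtype
  let f2 : A₀ →* E := (Cen x y).subtype.comp A₀.subtype
  have hcomm : ∀ (u : Subgroup.zpowers x) (a : A₀), Commute (f1 u) (f2 a) := by
    rintro ⟨u, hu⟩ a
    obtain ⟨k, rfl⟩ := hu
    exact ((a : Cen x y).2.1.symm).zpow_left k
  let F := MonoidHom.noncommCoprod f1 f2 hcomm
  have hF : ∀ u a, F (u, a) = f1 u * f2 a := fun u a => rfl
  have hu2 : ∀ u : Subgroup.zpowers x, (u : E) = 1 ∨ (u : E) = x := by
    rintro ⟨u, hu⟩
    rw [← mem_powers_iff_mem_zpowers] at hu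
    obtain ⟨k, rfl⟩ := hu
    rcases Nat.even_or_odd k with ⟨j, rfl⟩ | ⟨j, rfl⟩
    · left
      change x ^ (j + j) = 1
      rw [← two_mul, pow_mul, hx, one_pow]
    · right
      change x ^ (2 * j + 1) = x
      rw [pow_add, pow_mul, hx, one_pow, one_mul, pow_one]
  have hinj : Function.Injective F := by
    rw [injective_iff_map_eq_one]
    rintro ⟨u, a⟩ hua
    rw [hF] at hua
    have h1 : (u : E) * ((a : Cen x y) : E) = 1 := hua
    rcases hu2 u with h2 | h2
    · rw [h2, one_mul] at h1
      have ha : a = 1 := Subtype.ext (Subtype.ext h1)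
      have hu : u = 1 := Subtype.ext h2
      rw [ha, hu]; rfl
    · exfalso
      apply hxC
      rw [h2] at h1
      have : x = (((a : Cen x y) : E))⁻¹ := eq_inv_of_mul_eq_one_left h1
      have hmem : (((a : Cen x y) : E))⁻¹ ∈ Cen x y := (Cen x y).inv_mem (a : Cen x y).2
      rwa [← this] at hmem
  refine ⟨F.range, ⟨?_, ?_⟩, ?_⟩
  · rintro _ ⟨⟨u, a⟩, rfl⟩ _ ⟨⟨u', a'⟩, rfl⟩
    rw [← map_mul, ← map_mul]
    congr 1
    apply Prod.ext
    · obtain ⟨u, i, rfl⟩ := u
      obtain ⟨u', j, rfl⟩ := u'
      exact Subtype.ext ((Commute.refl x).zpow_zpow i j)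
    · exact Subtype.ext (hA₀.1 a a.2 a' a'.2)
  · rintro _ ⟨⟨u, a⟩, rfl⟩
    rw [← map_pow]
    have : ((u, a) : Subgroup.zpowers x × A₀) ^ 2 = 1 := by
      apply Prod.ext
      · apply Subtype.ext
        change (u : E) ^ 2 = 1
        rcases hu2 u with h2 | h2
        · rw [h2, one_pow]
        · rw [h2, hx]
      · exact Subtype.ext (hA₀.2 a a.2)
    rw [this, map_one]
  · rw [Nat.card_congr (MonoidHom.ofInjective hinj).toEquiv.symm, Nat.card_prod, Nat.card_zpowers,
      hox]

/-- lower bounds. -/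
theorem rank_lower (n : ℕ) :
    ∀ (E : Type*) [Group E] [Finite E] (z : E), XS 2 E z → Nat.card E = n →
      ∀ m : ℕ, Nat.card E = 2 ^ (2 * m + 1) →
        (NN E = 2 ^ (2 * m) + 2 ^ m → ∃ A : Subgroup E, EA A ∧ Nat.card A = 2 ^ (m + 1)) ∧
        (NN E + 2 ^ m = 2 ^ (2 * m) → ∃ A : Subgroup E, EA A ∧ Nat.card A = 2 ^ m) := by
  haveI : Fact (Nat.Prime 2) := ⟨Nat.prime_two⟩
  induction n using Nat.strong_induction_on with
  | _ n ih =>
    intro E _ _ z h hc m hm
    have hZ : EA (Subgroup.zpowers z) ∧ Nat.card (Subgroup.zpowers z) = 2 := by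
      refine ⟨⟨?_, ?_⟩, by rw [Nat.card_zpowers, h.ord]⟩
      · rintro _ ⟨i, rfl⟩ _ ⟨j, rfl⟩
        exact ((Commute.refl z).zpow_zpow i j)
      · rintro _ ⟨i, rfl⟩
        change (z ^ i) ^ 2 = 1
        rw [← zpow_natCast, ← zpow_mul, mul_comm, zpow_mul, zpow_natCast, h.zp, one_zpow]
    by_cases hab : ∀ g x : E, g * x = x * g
    · have h1 := h.abelian_card hab
      have hm0 : m = 0 := by
        rw [h1] at hm
        have : 2 ^ 1 = 2 ^ (2 * m + 1) := by simpa using hm
        have := Nat.pow_right_injective (le_refl 2) this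
        omega
      subst hm0
      constructor
      · intro _
        exact ⟨Subgroup.zpowers z, hZ.1, by rw [hZ.2]; norm_num⟩
      · intro hN
        have := XS.NN_pos (E := E)
        norm_num at hN
        omega
    · rcases h.cases2 hab with ⟨x, y, hxy, hx, hy, -⟩ | ⟨x, y, hxy, hx, hy, hn⟩
      · have k1 := h.card_eq hxy
        have k2 := h.count_hyp hxy hx hy
        have k4 := (h.cen_xs hxy).two_le_card
        obtain ⟨m', rfl⟩ : ∃ m', m = m' + 1 := by
          refine ⟨m - 1, ?_⟩
          have : m ≠ 0 := by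
            rintro rfl
            norm_num at hm
            omega
          omega
        have e1 : 2 ^ (2 * (m' + 1) + 1) = 2 * (2 * 2 ^ (2 * m' + 1)) := by ring
        have hC : Nat.card (Cen x y) = 2 ^ (2 * m' + 1) := by
          rw [e1] at hm; omega
        obtain ⟨i1, i2⟩ := ih (Nat.card (Cen x y)) (hc ▸ h.card_cen_lt hxy) (Cen x y) _
          (h.cen_xs hxy) rfl m' hC
        have e2 : 2 ^ (2 * m' + 1) = 2 * 2 ^ (2 * m') := by ring
        have e3 : 2 ^ (2 * (m' + 1)) = 4 * 2 ^ (2 * m') := by ring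
        have e4 : 2 ^ (m' + 1) = 2 * 2 ^ m' := by ring
        have e5 : 2 ^ (m' + 1 + 1) = 2 * 2 ^ (m' + 1) := by ring
        rw [hC, e2] at k2
        constructor
        · intro hN
          rw [e3, e4] at hN
          obtain ⟨A₀, hA₀, hcA⟩ := i1 (by omega)
          obtain ⟨A, hA, hcA'⟩ := h.extend hxy hx A₀ hA₀
          exact ⟨A, hA, by rw [hcA', hcA, e5]⟩
        · intro hN
          rw [e3, e4] at hN
          obtain ⟨A₀, hA₀, hcA⟩ := i2 (by omega)
          obtain ⟨A, hA, hcA'⟩ := h.extend hxy hx A₀ hA₀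
          exact ⟨A, hA, by rw [hcA', hcA, e4]⟩
      · have k1 := h.card_eq hxy
        have k4 := (h.cen_xs hxy).two_le_card
        have hm1 : 1 ≤ m := by
          by_contra hcon
          have : m = 0 := by omega
          subst this
          norm_num at hm
          omega
        have hu : 2 ≤ 2 ^ m := by
          calc 2 = 2 ^ 1 := by norm_num
            _ ≤ 2 ^ m := Nat.pow_le_pow_right (by norm_num) hm1
        have e6 : 2 ^ (2 * m) = 2 ^ m * 2 ^ m := by rw [two_mul, pow_add]
        constructor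
        · intro hN
          rw [hn, e6] at hN
          nlinarith
        · intro hN
          rw [hn, e6] at hN
          have : 2 ^ m = 2 := by nlinarith
          exact ⟨Subgroup.zpowers z, hZ.1, by rw [hZ.2, this]⟩

end Cfsg.Agent.Lib.Helper29.Extra
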