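import Mathlib
import Cfsg.Agent.Lib.Helper29.Extra4
import Cfsg.Agent.Lib.Helper1.Frattini

/-! Existence of the two extraspecial 2-groups of each order, by an explicit cocycle. -/

namespace Cfsg.Agent.Lib.Helper29.Extra

open scoped commutatorElement

abbrev VV (n : ℕ) := (Fin n → ZMod 2) × (Fin n → ZMod 2)

theorem two_zero : (2 : ZMod 2) = 0 := rfl

theorem zsq (t : ZMod 2) : t * t = t := by revert t; decide

theorem z01 (t : ZMod 2) : t = 0 ∨ t = 1 := by revert t; decide

theorem vv_add_self {n : ℕ} (x : VV n) : x + x = 0 := by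
  ext i
  · exact CharTwo.add_self_eq_zero _
  · exact CharTwo.add_self_eq_zero _

/-- the cocycle. -/
def coc {n : ℕ} (ε : ZMod 2) (i₀ : Fin n) (x y : VV n) : ZMod 2 :=
  ∑ i, x.2 i * y.1 i + ε * (x.1 i₀ * y.1 i₀ + x.2 i₀ * y.2 i₀)

variable {n : ℕ} {ε : ZMod 2} {i₀ : Fin n}

theorem coc_add_left (x x' y : VV n) : coc ε i₀ (x + x') y = coc ε i₀ x y + coc ε i₀ x' y := by
  simp only [coc, Prod.fst_add, Prod.snd_add, Pi.add_apply, add_mul, Finset.sum_add_distrib]
  ring

theorem coc_add_right (x y y' : VV n) : coc ε i₀ x (y + y') = coc ε i₀ x y + coc ε i₀ x y' := by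
  simp only [coc, Prod.fst_add, Prod.snd_add, Pi.add_apply, mul_add, Finset.sum_add_distrib]
  ring

theorem coc_zero_left (y : VV n) : coc ε i₀ 0 y = 0 := by
  simp [coc]

theorem coc_zero_right (x : VV n) : coc ε i₀ x 0 = 0 := by
  simp [coc]

/-- the group. -/
@[ext] structure HG {n : ℕ} (ε : ZMod 2) (i₀ : Fin n) where
  c : ZMod 2
  v : VV n

namespace HG

instance : Mul (HG ε i₀) := ⟨fun a b => ⟨a.c + b.c + coc ε i₀ a.v b.v, a.v + b.v⟩⟩
instance : One (HG ε i₀) := ⟨⟨0, 0⟩⟩
instance : Inv (HG ε i₀) := ⟨fun a => ⟨a.c + coc ε i₀ a.v a.v, a.v⟩⟩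

theorem mul_c (a b : HG ε i₀) : (a * b).c = a.c + b.c + coc ε i₀ a.v b.v := rfl
theorem mul_v (a b : HG ε i₀) : (a * b).v = a.v + b.v := rfl
theorem one_c : (1 : HG ε i₀).c = 0 := rfl
theorem one_v : (1 : HG ε i₀).v = 0 := rfl
theorem inv_c (a : HG ε i₀) : (a⁻¹).c = a.c + coc ε i₀ a.v a.v := rfl
theorem inv_v (a : HG ε i₀) : (a⁻¹).v = a.v := rfl

instance : Group (HG ε i₀) where
  mul_assoc a b c := by
    apply HG.ext
    · simp only [mul_c, mul_v, coc_add_left, coc_add_right]; ring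
    · simp only [mul_v, add_assoc]
  one_mul a := by
    apply HG.ext
    · simp only [mul_c, one_c, one_v, coc_zero_left]; ring
    · simp only [mul_v, one_v, zero_add]
  mul_one a := by
    apply HG.ext
    · simp only [mul_c, one_c, one_v, coc_zero_right]; ring
    · simp only [mul_v, one_v, add_zero]
  inv_mul_cancel a := by
    apply HG.ext
    · simp only [mul_c, inv_c, inv_v, one_c]
      linear_combination (a.c + coc ε i₀ a.v a.v) * two_zero
    · simp only [mul_v, inv_v, one_v, vv_add_self]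

/-- underlying set. -/
def equivProd : HG ε i₀ ≃ ZMod 2 × VV n where
  toFun a := (a.c, a.v)
  invFun p := ⟨p.1, p.2⟩
  left_inv _ := rfl
  right_inv _ := rfl

instance : Finite (HG ε i₀) := Finite.of_equiv _ equivProd.symm

theorem card_eq : Nat.card (HG ε i₀) = 2 ^ (2 * n + 1) := by
  rw [Nat.card_congr equivProd, Nat.card_prod, Nat.card_prod, Nat.card_fun, Nat.card_zmod,
    Nat.card_fin]
  ring

theorem sq_eq (a : HG ε i₀) : a ^ 2 = ⟨coc ε i₀ a.v a.v, 0⟩ := by
  rw [pow_two]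
  apply HG.ext
  · simp only [mul_c]
    linear_combination a.c * two_zero
  · simp only [mul_v, vv_add_self]

theorem sq_eq_one_iff (a : HG ε i₀) : a ^ 2 = 1 ↔ coc ε i₀ a.v a.v = 0 := by
  rw [sq_eq]
  constructor
  · intro h; exact congrArg HG.c h
  · intro h; rw [h]; rfl

theorem comm_iff (a b : HG ε i₀) : a * b = b * a ↔ coc ε i₀ a.v b.v = coc ε i₀ b.v a.v := by
  constructor
  · intro h
    have := congrArg HG.c h
    simp only [mul_c] at this
    linear_combination this
  · intro h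
    apply HG.ext
    · simp only [mul_c, h]; ring
    · simp only [mul_v, add_comm]

theorem exists_noncomm (a : HG ε i₀) (ha : a.v ≠ 0) : ∃ b : HG ε i₀, a * b ≠ b * a := by
  classical
  have : ∃ i, a.v.1 i ≠ 0 ∨ a.v.2 i ≠ 0 := by
    by_contra hcon
    push Not at hcon
    apply ha
    ext i
    · exact (hcon i).1
    · exact (hcon i).2
  obtain ⟨i, hi | hi⟩ := this
  · refine ⟨⟨0, (0, Pi.single i 1)⟩, ?_⟩
    rw [Ne, comm_iff]
    intro h
    apply hi
    simp only [coc, Pi.zero_apply, mul_zero, Finset.sum_const_zero, zero_mul, zero_add,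
      Pi.single_apply, ite_mul, one_mul, Finset.sum_ite_eq', Finset.mem_univ, if_true] at h
    split_ifs at h
    · linear_combination (-1 : ZMod 2) * h
    · linear_combination (-1 : ZMod 2) * h
  · refine ⟨⟨0, (Pi.single i 1, 0)⟩, ?_⟩
    rw [Ne, comm_iff]
    intro h
    apply hi
    simp only [coc, Pi.zero_apply, mul_zero, Finset.sum_const_zero, zero_mul, zero_add, add_zero,
      Pi.single_apply, mul_ite, mul_one, ite_mul, one_mul, Finset.sum_ite_eq', Finset.mem_univ,
      if_true] at h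
    linear_combination h

theorem mem_center_iff (a : HG ε i₀) : a ∈ Subgroup.center (HG ε i₀) ↔ a.v = 0 := by
  constructor
  · intro h
    by_contra hne
    obtain ⟨b, hb⟩ := exists_noncomm a hne
    exact hb ((Subgroup.mem_center_iff.1 h b).symm)
  · intro h
    rw [Subgroup.mem_center_iff]
    intro b
    rw [comm_iff, h, coc_zero_left, coc_zero_right]

/-- the central involution. -/
def zz (ε : ZMod 2) (i₀ : Fin n) : HG ε i₀ := ⟨1, 0⟩

theorem eq_one_or_zz (a : HG ε i₀) (h : a.v = 0) : a = 1 ∨ a = zz ε i₀ := by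
  rcases z01 a.c with hc | hc
  · left; exact HG.ext hc h
  · right; exact HG.ext hc h

theorem zz_ne_one : zz ε i₀ ≠ 1 := by
  intro h
  have := congrArg HG.c h
  exact one_ne_zero this

theorem orderOf_zz : orderOf (zz ε i₀) = 2 := by
  apply orderOf_eq_prime
  · rw [sq_eq_one_iff]; exact coc_zero_left _
  · exact zz_ne_one

theorem center_eq : Subgroup.center (HG ε i₀) = Subgroup.zpowers (zz ε i₀) := by
  apply le_antisymm
  · intro a ha
    rcases eq_one_or_zz a ((mem_center_iff a).1 ha) with h | h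
    · rw [h]; exact Subgroup.one_mem _
    · rw [h]; exact Subgroup.mem_zpowers _
  · rw [Subgroup.zpowers_le]
    exact (mem_center_iff _).2 rfl

theorem card_center : Nat.card (Subgroup.center (HG ε i₀)) = 2 := by
  rw [center_eq, Nat.card_zpowers, orderOf_zz]

theorem isPGroup : IsPGroup 2 (HG ε i₀) := IsPGroup.of_card card_eq

theorem commutator_eq : commutator (HG ε i₀) = Subgroup.center (HG ε i₀) := by
  classical
  apply le_antisymm
  · rw [commutator_def, Subgroup.commutator_le]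
    intro a _ b _
    rw [mem_center_iff, commutatorElement_def]
    simp only [mul_v, inv_v]
    calc a.v + b.v + a.v + b.v = (a.v + a.v) + (b.v + b.v) := by abel
      _ = 0 := by rw [vv_add_self, vv_add_self, add_zero]
  · rw [center_eq, Subgroup.zpowers_le]
    let a : HG ε i₀ := ⟨0, (Pi.single i₀ 1, 0)⟩
    have ha : a.v ≠ 0 := by
      intro h
      have := congrFun (congrArg Prod.fst h) i₀
      simp [a] at this
    obtain ⟨b, hb⟩ := exists_noncomm a ha
    have hmem : ⁅a, b⁆ ∈ commutator (HG ε i₀) :=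
      Subgroup.commutator_mem_commutator (Subgroup.mem_top a) (Subgroup.mem_top b)
    have hv : (⁅a, b⁆ : HG ε i₀).v = 0 := by
      rw [commutatorElement_def]
      simp only [mul_v, inv_v]
      calc a.v + b.v + a.v + b.v = (a.v + a.v) + (b.v + b.v) := by abel
        _ = 0 := by rw [vv_add_self, vv_add_self, add_zero]
    rcases eq_one_or_zz _ hv with h | h
    · exact absurd (commutatorElement_eq_one_iff_mul_comm.1 h) hb
    · rwa [h] at hmem

theorem ker_coatom {E : Type*} [Group E] (φ : E →* Multiplicative (ZMod 2)) (g : E)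
    (hg : φ g ≠ 1) : IsCoatom φ.ker := by
  have two : ∀ s t : Multiplicative (ZMod 2), s ≠ 1 → t ≠ 1 → s = t := by decide
  constructor
  · intro h
    apply hg
    have : g ∈ φ.ker := h ▸ Subgroup.mem_top g
    exact this
  · intro K hK
    obtain ⟨k, hkK, hk⟩ := SetLike.exists_of_lt hK
    rw [eq_top_iff]
    intro e _
    by_cases he : φ e = 1
    · exact hK.le he
    · have h1 : φ e = φ k := two _ _ he hk
      have h2 : e * k⁻¹ ∈ φ.ker := by
        rw [MonoidHom.mem_ker, map_mul, map_inv, h1, mul_inv_cancel]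
      have := K.mul_mem (hK.le h2) hkK
      simpa using this

/-- coordinate homomorphisms. -/
def coord1 (ε : ZMod 2) (i₀ i : Fin n) : HG ε i₀ →* Multiplicative (ZMod 2) where
  toFun a := Multiplicative.ofAdd (a.v.1 i)
  map_one' := rfl
  map_mul' _ _ := rfl

def coord2 (ε : ZMod 2) (i₀ i : Fin n) : HG ε i₀ →* Multiplicative (ZMod 2) where
  toFun a := Multiplicative.ofAdd (a.v.2 i)
  map_one' := rfl
  map_mul' _ _ := rfl

theorem frattini_eq : frattini (HG ε i₀) = Subgroup.center (HG ε i₀) := by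
  haveI : Fact (Nat.Prime 2) := ⟨Nat.prime_two⟩
  apply le_antisymm
  · intro g hg
    rw [mem_center_iff]
    ext i
    · by_contra hne
      have hc := ker_coatom (coord1 ε i₀ i) g hne
      exact hne (frattini_le_coatom hc hg)
    · by_contra hne
      have hc := ker_coatom (coord2 ε i₀ i) g hne
      exact hne (frattini_le_coatom hc hg)
  · rw [← commutator_eq]
    exact Cfsg.Agent.Lib.Helper1.pgroup_commutator_le_frattini isPGroup

theorem extraspecial : Cfsg.IsExtraspecial 2 (HG ε i₀) :=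
  ⟨⟨isPGroup, frattini_eq, commutator_eq⟩, card_center⟩

/-- a big elementary abelian subgroup in the plus type group. -/
def bigA (i₀ : Fin n) : Subgroup (HG 0 i₀) where
  carrier := {a | a.v.2 = 0}
  mul_mem' {a b} ha hb := by
    change (a * b).v.2 = 0
    rw [mul_v, Prod.snd_add, show a.v.2 = 0 from ha, show b.v.2 = 0 from hb, add_zero]
  one_mem' := rfl
  inv_mem' {a} ha := ha

theorem coc_bigA (x y : VV n) (hx : x.2 = 0) : coc 0 i₀ x y = 0 := by
  simp [coc, hx]

theorem bigA_EA : EA (bigA i₀) := by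
  constructor
  · intro a ha b hb
    rw [comm_iff, coc_bigA _ _ ha, coc_bigA _ _ hb]
  · intro a ha
    rw [sq_eq_one_iff, coc_bigA _ _ ha]

theorem card_bigA : Nat.card (bigA i₀) = 2 ^ (n + 1) := by
  let e : bigA i₀ ≃ ZMod 2 × (Fin n → ZMod 2) :=
    { toFun := fun a => (a.1.c, a.1.v.1)
      invFun := fun p => ⟨⟨p.1, (p.2, 0)⟩, rfl⟩
      left_inv := by
        rintro ⟨a, ha⟩
        apply Subtype.ext
        apply HG.ext
        · rfl
        · exact Prod.ext rfl (show (0 : Fin n → ZMod 2) = a.v.2 from (show a.v.2 = 0 from ha).symm)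
      right_inv := fun _ => rfl }
  rw [Nat.card_congr e, Nat.card_prod, Nat.card_fun, Nat.card_zmod, Nat.card_fin]
  ring

/-- shift by the diagonal vector. -/
def shiftV (i₀ : Fin n) (x : VV n) : VV n := x + (Pi.single i₀ 1, Pi.single i₀ 1)

theorem shiftV_shiftV (x : VV n) : shiftV i₀ (shiftV i₀ x) = x := by
  unfold shiftV
  rw [add_assoc, vv_add_self, add_zero]

theorem coc_shift (x : VV n) :
    coc 1 i₀ x x = coc 0 i₀ (shiftV i₀ x) (shiftV i₀ x) + 1 := by
  classical
  unfold shiftV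
  rw [coc_add_left, coc_add_right, coc_add_right]
  have h1 : coc 0 i₀ x (Pi.single i₀ 1, Pi.single i₀ 1) = x.2 i₀ := by
    simp [coc, Pi.single_apply]
  have h2 : coc 0 i₀ (Pi.single i₀ 1, Pi.single i₀ 1) x = x.1 i₀ := by
    simp [coc, Pi.single_apply]
  have h3 : coc 0 i₀ ((Pi.single i₀ 1, Pi.single i₀ 1) : VV n) (Pi.single i₀ 1, Pi.single i₀ 1)
      = 1 := by
    simp [coc, Pi.single_apply]
  have h4 : coc 1 i₀ x x = coc 0 i₀ x x + (x.1 i₀ + x.2 i₀) := by
    simp only [coc, zsq]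
    ring
  rw [h1, h2, h3, h4]
  linear_combination (-1 : ZMod 2) * two_zero

/-- the underlying bijection between the two groups. -/
def shiftE (i₀ : Fin n) : HG 1 i₀ ≃ HG 0 i₀ where
  toFun a := ⟨a.c, shiftV i₀ a.v⟩
  invFun b := ⟨b.c, shiftV i₀ b.v⟩
  left_inv a := by
    apply HG.ext
    · rfl
    · exact shiftV_shiftV _
  right_inv a := by
    apply HG.ext
    · rfl
    · exact shiftV_shiftV _

theorem NN_add : NN (HG 1 i₀) + NN (HG 0 i₀) = 2 ^ (2 * n + 1) := by
  classical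
  have h : ∀ a : HG 1 i₀, a ^ 2 = 1 ↔ ¬ ((shiftE i₀ a) ^ 2 = 1) := by
    intro a
    rw [sq_eq_one_iff, sq_eq_one_iff, coc_shift]
    change _ ↔ ¬ (coc 0 i₀ (shiftV i₀ a.v) (shiftV i₀ a.v) = 0)
    rcases z01 (coc 0 i₀ (shiftV i₀ a.v) (shiftV i₀ a.v)) with h | h <;> rw [h] <;> decide
  have e1 : NN (HG 1 i₀) = Nat.card {b : HG 0 i₀ // ¬ (b ^ 2 = 1)} :=
    Nat.card_congr (Equiv.subtypeEquiv (shiftE i₀) h)
  have e2 := Nat.card_congr (Equiv.sumCompl (fun b : HG 0 i₀ => b ^ 2 = 1))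
  rw [Nat.card_sum, card_eq] at e2
  rw [e1, NN, ← e2, add_comm]

end HG

section rank

variable {E : Type*} [Group E] [Finite E]

omit [Finite E] in
theorem EA_iff (A : Subgroup E) : Cfsg.IsElementaryAbelian 2 A ↔ EA A := by
  constructor
  · rintro ⟨h1, h2⟩
    exact ⟨fun a ha b hb => congrArg Subtype.val (h1.is_comm.comm ⟨a, ha⟩ ⟨b, hb⟩), h2⟩
  · rintro ⟨h1, h2⟩
    exact ⟨⟨⟨fun a b => Subtype.ext (h1 a a.2 b b.2)⟩⟩, h2⟩

theorem rank_of_plus {z : E} (h : XS 2 E z) (n : ℕ) (hn : Nat.card E = 2 ^ (2 * n + 1))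
    (hN : NN E = 2 ^ (2 * n) + 2 ^ n) :
    IsGreatest {k : ℕ | ∃ A : Subgroup E, Cfsg.IsElementaryAbelian 2 A ∧ Nat.card A = 2 ^ k}
      (n + 1) := by
  constructor
  · obtain ⟨A, hA, hc⟩ := (rank_lower _ E z h rfl n hn).1 hN
    exact ⟨A, (EA_iff A).2 hA, hc⟩
  · rintro k ⟨A, hA, hc⟩
    have := (rank_upper _ E z h rfl n hn A ((EA_iff A).1 hA)).1 hN
    rw [hc] at this
    exact (Nat.pow_le_pow_iff_right (by norm_num)).1 this

theorem rank_of_minus {z : E} (h : XS 2 E z) (n : ℕ) (hn : Nat.card E = 2 ^ (2 * n + 1))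
    (hN : NN E + 2 ^ n = 2 ^ (2 * n)) :
    IsGreatest {k : ℕ | ∃ A : Subgroup E, Cfsg.IsElementaryAbelian 2 A ∧ Nat.card A = 2 ^ k}
      n := by
  constructor
  · obtain ⟨A, hA, hc⟩ := (rank_lower _ E z h rfl n hn).2 hN
    exact ⟨A, (EA_iff A).2 hA, hc⟩
  · rintro k ⟨A, hA, hc⟩
    have := (rank_upper _ E z h rfl n hn A ((EA_iff A).1 hA)).2 hN
    rw [hc] at this
    exact (Nat.pow_le_pow_iff_right (by norm_num)).1 this

end rank

theorem HG.NN_plus {n : ℕ} (i₀ : Fin n) : NN (HG 0 i₀) = 2 ^ (2 * n) + 2 ^ n := by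
  haveI : Fact (Nat.Prime 2) := ⟨Nat.prime_two⟩
  obtain ⟨z, h, -⟩ := of_extraspecial (HG.extraspecial (ε := 0) (i₀ := i₀))
  obtain ⟨m, hm, hcase⟩ := order_count _ (HG 0 i₀) z h rfl
  have hmn : m = n := by
    rw [HG.card_eq] at hm
    have := Nat.pow_right_injective (le_refl 2) hm
    omega
  subst hmn
  rcases hcase with hN | hN
  · exact hN
  · exfalso
    have := (rank_upper _ (HG 0 i₀) z h rfl m HG.card_eq (HG.bigA i₀) HG.bigA_EA).2 hN
    rw [HG.card_bigA] at this
    have h3 : 2 ^ m < 2 ^ (m + 1) := Nat.pow_lt_pow_right (by norm_num) (by omega)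
    omega

theorem HG.NN_minus {n : ℕ} (i₀ : Fin n) : NN (HG 1 i₀) + 2 ^ n = 2 ^ (2 * n) := by
  have h1 := HG.NN_add (i₀ := i₀)
  rw [HG.NN_plus] at h1
  have : 2 ^ (2 * n + 1) = 2 * 2 ^ (2 * n) := by ring
  omega

end Cfsg.Agent.Lib.Helper29.Extra
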