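import Mathlib

set_option autoImplicit false

namespace Cfsg.Agent.Lib.Helper29.Generous

/-- generosity in terms of permutations of the whole set -/
theorem conv {α : Type*} [Fintype α] [DecidableEq α] (G : Subgroup (Equiv.Perm α)) {k : ℕ}
    (hgen : ∀ s : Finset α, s.card = k + 1 → ∀ σ : Equiv.Perm ↥s, ∃ g ∈ G, ∀ x : ↥s, g (x : α) = σ x)
    (s : Finset α) (hs : s.card = k + 1) (σ : Equiv.Perm α) (hσ : ∀ x ∈ s, σ x ∈ s) :
    ∃ g : G, ∀ x ∈ s, g • x = σ x := by
  obtain ⟨g, hg, h⟩ := hgen s hs (Equiv.Perm.subtypePermOfFintype σ (p := fun x => x ∈ s) hσ)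
  exact ⟨⟨g, hg⟩, fun x hx => h ⟨x, hx⟩⟩

theorem gen_trans (k : ℕ) : ∀ {G α : Type*} [Group G] [MulAction G α] [Finite α]
    (_ : k < Nat.card α)
    (_ : ∀ s : Finset α, s.card = k + 1 → ∀ σ : Equiv.Perm α, (∀ x ∈ s, σ x ∈ s) →
      ∃ g : G, ∀ x ∈ s, g • x = σ x),
    MulAction.IsMultiplyPretransitive G α k := by
  classical
  induction k with
  | zero => intro G α _ _ _ _ _; exact MulAction.is_zero_pretransitive'
  | succ k ih =>
    intro G α _ _ _ hk h
    haveI := Fintype.ofFinite α
    haveI htr : MulAction.IsPretransitive G α := by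
      refine ⟨fun x y => ?_⟩
      by_cases hxy : x = y
      · exact ⟨1, by rw [one_smul, hxy]⟩
      obtain ⟨u, hu, _, hcard⟩ := Finset.exists_subsuperset_card_eq (s := {x, y}) (t := Finset.univ) (n := k + 1 + 1)
        (Finset.subset_univ _) (by rw [Finset.card_pair hxy]; omega)
        (by rw [Finset.card_univ, ← Nat.card_eq_fintype_card]; omega)
      have hx : x ∈ u := hu (by simp)
      have hy : y ∈ u := hu (by simp)
      obtain ⟨g, hg⟩ := h u hcard (Equiv.swap x y) (by
        intro z hz
        by_cases hzx : z = x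
        · rw [hzx, Equiv.swap_apply_left]; exact hy
        by_cases hzy : z = y
        · rw [hzy, Equiv.swap_apply_right]; exact hx
        rw [Equiv.swap_apply_of_ne_of_ne hzx hzy]; exact hz)
      exact ⟨g, by rw [hg x hx, Equiv.swap_apply_left]⟩
    haveI : Nonempty α := by
      by_contra hne
      rw [not_nonempty_iff] at hne
      rw [Nat.card_of_isEmpty] at hk
      omega
    obtain ⟨a⟩ := this
    rw [SubMulAction.ofStabilizer.isMultiplyPretransitive (a := a)]
    have hc := SubMulAction.nat_card_ofStabilizer_add_one_eq (G := G) a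
    refine ih (by omega) ?_
    intro s' hs' σ' hσ'
    have hcard : (insert a (s'.map ⟨Subtype.val, Subtype.val_injective⟩)).card = k + 1 + 1 := by
      rw [Finset.card_insert_of_notMem, Finset.card_map, hs']
      intro hmem
      rw [Finset.mem_map] at hmem
      obtain ⟨z, _, hz⟩ := hmem
      exact SubMulAction.neq_of_mem_ofStabilizer G a hz
    have hσa : (Equiv.Perm.ofSubtype σ' : Equiv.Perm α) a = a :=
      Equiv.Perm.ofSubtype_apply_of_not_mem σ' (fun h => h rfl)
    obtain ⟨g, hg⟩ := h _ hcard (Equiv.Perm.ofSubtype σ') (by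
      intro x hx
      rw [Finset.mem_insert, Finset.mem_map] at hx ⊢
      rcases hx with rfl | ⟨z, hz, rfl⟩
      · left; exact hσa
      · right
        refine ⟨σ' z, hσ' z hz, ?_⟩
        exact (Equiv.Perm.ofSubtype_apply_coe σ' z).symm)
    have hga : g • a = a := by rw [hg a (Finset.mem_insert_self _ _), hσa]
    refine ⟨⟨g, hga⟩, ?_⟩
    intro z hz
    apply Subtype.ext
    change g • z.1 = _
    rw [hg z.1 (Finset.mem_insert_of_mem (Finset.mem_map.mpr ⟨z, hz, rfl⟩))]
    exact Equiv.Perm.ofSubtype_apply_coe σ' z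

end Cfsg.Agent.Lib.Helper29.Generous
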