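import Mathlib

/-! Recognising `PGL₂(F)` as a group of permutations of the projective line. -/

set_option autoImplicit false

namespace Cfsg.Agent.Lib.Helper29.Mobius

open Matrix MatrixGroups OnePoint

variable {F : Type*} [Field F] [DecidableEq F]

/-- the Möbius action as a homomorphism -/
noncomputable def mob : GL (Fin 2) F →* Equiv.Perm (OnePoint F) := MulAction.toPermHom _ _

theorem mob_apply (m : GL (Fin 2) F) (x : OnePoint F) : mob m x = m • x := rfl

/-- hypotheses recognising the Möbius group -/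
structure Good (G : Subgroup (Equiv.Perm (OnePoint F))) : Prop where
  aff : ∀ a b : F, a ≠ 0 → ∃ g ∈ G, g ∞ = ∞ ∧ ∀ x : F, g x = ((a * x + b : F) : OnePoint F)
  inv : ∃ t ∈ G, t ∞ = ((0 : F) : OnePoint F) ∧ t ((0 : F) : OnePoint F) = ∞ ∧
    ∀ x : F, x ≠ 0 → t x = ((x⁻¹ : F) : OnePoint F)
  sharp : ∀ g ∈ G, g ∞ = ∞ → g ((0 : F) : OnePoint F) = ((0 : F) : OnePoint F) →
    g ((1 : F) : OnePoint F) = ((1 : F) : OnePoint F) → g = 1

/-- upper triangular matrix -/
noncomputable def upper (a b : F) (ha : a ≠ 0) : GL (Fin 2) F :=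
  GeneralLinearGroup.mkOfDetNeZero !![a, b; 0, 1] (by simpa [det_fin_two] using ha)

/-- the Weyl element -/
noncomputable def weyl : GL (Fin 2) F :=
  GeneralLinearGroup.mkOfDetNeZero !![0, 1; 1, 0] (by simp [det_fin_two])

theorem upper_infty (a b : F) (ha : a ≠ 0) : mob (upper a b ha) ∞ = ∞ := by
  rw [mob_apply, smul_infty_eq_self_iff]
  simp [upper, GeneralLinearGroup.mkOfDetNeZero]

theorem upper_coe (a b : F) (ha : a ≠ 0) (x : F) :
    mob (upper a b ha) x = ((a * x + b : F) : OnePoint F) := by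
  rw [mob_apply, smul_some_eq_ite]
  simp [upper, GeneralLinearGroup.mkOfDetNeZero]

theorem weyl_infty : mob (weyl : GL (Fin 2) F) ∞ = ((0 : F) : OnePoint F) := by
  rw [mob_apply, smul_infty_eq_ite]
  simp [weyl, GeneralLinearGroup.mkOfDetNeZero]

theorem weyl_zero : mob (weyl : GL (Fin 2) F) ((0 : F) : OnePoint F) = ∞ := by
  rw [mob_apply, smul_some_eq_ite]
  simp [weyl, GeneralLinearGroup.mkOfDetNeZero]

theorem weyl_coe (x : F) (hx : x ≠ 0) : mob (weyl : GL (Fin 2) F) x = ((x⁻¹ : F) : OnePoint F) := by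
  rw [mob_apply, smul_some_eq_ite]
  simp [weyl, GeneralLinearGroup.mkOfDetNeZero, hx]

variable {G : Subgroup (Equiv.Perm (OnePoint F))}

theorem Good.upper_mem (hG : Good G) (a b : F) (ha : a ≠ 0) : mob (upper a b ha) ∈ G := by
  obtain ⟨g, hg, h1, h2⟩ := hG.aff a b ha
  have : mob (upper a b ha) = g := by
    ext y
    induction y using OnePoint.rec with
    | infty => rw [upper_infty, h1]
    | coe x => rw [upper_coe, h2]
  rw [this]; exact hg

theorem Good.weyl_mem (hG : Good G) : mob (weyl : GL (Fin 2) F) ∈ G := by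
  obtain ⟨t, ht, h1, h2, h3⟩ := hG.inv
  have : mob (weyl : GL (Fin 2) F) = t := by
    ext y
    induction y using OnePoint.rec with
    | infty => rw [weyl_infty, h1]
    | coe x =>
      by_cases hx : x = 0
      · subst hx; rw [weyl_zero, h2]
      · rw [weyl_coe x hx, h3 x hx]
  rw [this]; exact ht

theorem Good.tri_mem (hG : Good G) (m : GL (Fin 2) F) (hm : m 1 0 = 0) : mob m ∈ G := by
  have hdet : m 0 0 * m 1 1 ≠ 0 := by
    have := m.det_ne_zero
    rw [det_fin_two, hm, mul_zero, sub_zero] at this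
    exact this
  have ha : m 0 0 ≠ 0 := left_ne_zero_of_mul hdet
  have hd : m 1 1 ≠ 0 := right_ne_zero_of_mul hdet
  have : mob m = mob (upper (m 0 0 / m 1 1) (m 0 1 / m 1 1) (div_ne_zero ha hd)) := by
    ext y
    induction y using OnePoint.rec with
    | infty => rw [upper_infty, mob_apply, smul_infty_eq_self_iff, hm]
    | coe x =>
      rw [upper_coe, mob_apply, smul_some_eq_ite, hm, zero_mul, zero_add, if_neg hd]
      congr 1
      field_simp
  rw [this]; exact hG.upper_mem _ _ _

theorem Good.mob_mem (hG : Good G) (m : GL (Fin 2) F) : mob m ∈ G := by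
  by_cases hm : m 1 0 = 0
  · exact hG.tri_mem m hm
  · have h1 : mob (weyl * (upper 1 (-(m 0 0 / m 1 0)) one_ne_zero * m)) ∈ G := by
      apply hG.tri_mem
      simp only [Units.val_mul, Matrix.mul_apply, Fin.sum_univ_two]
      simp [weyl, upper, GeneralLinearGroup.mkOfDetNeZero]
      field_simp
      ring
    rw [map_mul, map_mul] at h1
    have h2 := G.mul_mem (G.inv_mem (hG.upper_mem 1 (-(m 0 0 / m 1 0)) one_ne_zero))
      (G.mul_mem (G.inv_mem hG.weyl_mem) h1)
    simpa [mul_assoc] using h2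

theorem Good.mem_range_of_fix (hG : Good G) {g : Equiv.Perm (OnePoint F)} (hg : g ∈ G) (h : g ∞ = ∞) :
    g ∈ (mob : GL (Fin 2) F →* _).range := by
  obtain ⟨b, hb⟩ : ∃ b : F, g ((0 : F) : OnePoint F) = b := by
    induction hy : g ((0 : F) : OnePoint F) using OnePoint.rec with
    | infty => rw [← h] at hy; exact absurd (g.injective hy) (by simp)
    | coe x => exact ⟨x, rfl⟩
  obtain ⟨c, hc⟩ : ∃ c : F, g ((1 : F) : OnePoint F) = c := by
    induction hy : g ((1 : F) : OnePoint F) using OnePoint.rec with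
    | infty => rw [← h] at hy; exact absurd (g.injective hy) (by simp)
    | coe x => exact ⟨x, rfl⟩
  have hne : c - b ≠ 0 := by
    intro e
    rw [sub_eq_zero] at e
    rw [e, ← hb] at hc
    have := g.injective hc
    simp at this
  have h1 : (mob (upper (c - b) b hne))⁻¹ * g = 1 := by
    apply hG.sharp _ (G.mul_mem (G.inv_mem (hG.upper_mem _ _ _)) hg)
    · rw [Equiv.Perm.mul_apply, h, Equiv.Perm.inv_eq_iff_eq, upper_infty]
    · rw [Equiv.Perm.mul_apply, hb, Equiv.Perm.inv_eq_iff_eq, upper_coe]; simp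
    · rw [Equiv.Perm.mul_apply, hc, Equiv.Perm.inv_eq_iff_eq, upper_coe]; simp
  exact ⟨upper (c - b) b hne, (inv_mul_eq_one.mp h1)⟩

theorem Good.eq_range (hG : Good G) : G = (mob : GL (Fin 2) F →* _).range := by
  apply le_antisymm
  · intro g hg
    induction hy : g ∞ using OnePoint.rec with
    | infty => exact hG.mem_range_of_fix hg hy
    | coe s =>
      have h1 : mob (weyl : GL (Fin 2) F) * (mob (upper 1 (-s) one_ne_zero) * g) ∈
          (mob : GL (Fin 2) F →* _).range := by
        apply hG.mem_range_of_fix (G.mul_mem hG.weyl_mem (G.mul_mem (hG.upper_mem _ _ _) hg))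
        rw [Equiv.Perm.mul_apply, Equiv.Perm.mul_apply, hy, upper_coe]
        simp [weyl_zero]
      have h2 := (mob : GL (Fin 2) F →* _).range.mul_mem
        ((mob : GL (Fin 2) F →* _).range.inv_mem ⟨upper 1 (-s) one_ne_zero, rfl⟩)
        ((mob : GL (Fin 2) F →* _).range.mul_mem
          ((mob : GL (Fin 2) F →* _).range.inv_mem ⟨weyl, rfl⟩) h1)
      simpa [mul_assoc] using h2
  · rintro _ ⟨m, rfl⟩
    exact hG.mob_mem m

theorem mob_ker : (mob : GL (Fin 2) F →* _).ker = Subgroup.center (GL (Fin 2) F) := by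
  rw [GeneralLinearGroup.center_eq_range_scalar]
  ext m
  rw [MonoidHom.mem_ker]
  constructor
  · intro h
    have h1 : m • (∞ : OnePoint F) = ∞ := by rw [← mob_apply, h]; rfl
    have h2 : m • (((0 : F) : OnePoint F)) = ((0 : F) : OnePoint F) := by rw [← mob_apply, h]; rfl
    have h3 : m • (((1 : F) : OnePoint F)) = ((1 : F) : OnePoint F) := by rw [← mob_apply, h]; rfl
    rw [smul_infty_eq_self_iff] at h1
    rw [smul_some_eq_ite, h1] at h2 h3
    simp only [zero_mul, mul_zero, zero_add, mul_one] at h2 h3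
    have hd : m 1 1 ≠ 0 := by
      intro e
      rw [if_pos e] at h2
      simp at h2
    rw [if_neg hd] at h2 h3
    have h2' : m 0 1 / m 1 1 = 0 := OnePoint.coe_injective h2
    have h3' : (m 0 0 + m 0 1) / m 1 1 = 1 := OnePoint.coe_injective h3
    have hb : m 0 1 = 0 := by
      rcases div_eq_zero_iff.mp h2' with e | e
      · exact e
      · exact absurd e hd
    rw [hb, add_zero, div_eq_one_iff_eq hd] at h3'
    refine ⟨Units.mk0 (m 1 1) hd, ?_⟩
    ext i j
    fin_cases i <;> fin_cases j <;> simp [h1, hb, h3', GeneralLinearGroup.scalar]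
  · rintro ⟨u, rfl⟩
    ext y
    induction y using OnePoint.rec with
    | infty =>
      rw [mob_apply, Equiv.Perm.one_apply, smul_infty_eq_self_iff]
      simp [GeneralLinearGroup.scalar]
    | coe x =>
      rw [mob_apply, Equiv.Perm.one_apply, smul_some_eq_ite]
      simp [GeneralLinearGroup.scalar]

theorem Good.iso (hG : Good G) : Nonempty (G ≃* Matrix.ProjGenLinGroup (Fin 2) F) := by
  have e1 : G ≃* (mob : GL (Fin 2) F →* _).range := MulEquiv.subgroupCongr hG.eq_range
  have e2 := QuotientGroup.quotientKerEquivRange (mob : GL (Fin 2) F →* _)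
  have e3 : GL (Fin 2) F ⧸ (mob : GL (Fin 2) F →* _).ker ≃* GL (Fin 2) F ⧸ Subgroup.center (GL (Fin 2) F) :=
    QuotientGroup.quotientMulEquivOfEq mob_ker
  exact ⟨e1.trans (e2.symm.trans e3)⟩

end Cfsg.Agent.Lib.Helper29.Mobius
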