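import Mathlib
import Cfsg.Prelude.Def_Perm

set_option autoImplicit false

namespace Cfsg.Agent.Lib.Helper29.NF

open Cfsg

variable {F : Type*} [NearField F]

theorem add_mul' (a b c : F) : (a + b) * c = a * c + b * c := NearField.right_distrib a b c

theorem mul_zero' (a : F) : a * 0 = 0 := NearField.mul_zero a

theorem zero_mul' (c : F) : (0 : F) * c = 0 := by
  have h := add_mul' (0 : F) 0 c
  rw [add_zero] at h
  exact left_eq_add.mp h

theorem neg_mul' (a c : F) : (-a) * c = -(a * c) := by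
  have h := add_mul' (-a) a c
  rw [neg_add_cancel, zero_mul'] at h
  exact eq_neg_of_add_eq_zero_left h.symm

theorem sub_mul' (a b c : F) : (a - b) * c = a * c - b * c := by
  rw [sub_eq_add_neg, add_mul', neg_mul', ← sub_eq_add_neg]

theorem mul_ne_zero' {a b : F} (ha : a ≠ 0) (hb : b ≠ 0) : a * b ≠ 0 := by
  intro h
  obtain ⟨b', hb1, _⟩ := NearField.exists_inv b hb
  apply ha
  calc a = a * (b * b') := by rw [hb1, mul_one]
    _ = (a * b) * b' := by rw [mul_assoc]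
    _ = 0 := by rw [h, zero_mul']

theorem inv_ne_zero' {a b : F} (h : a * b = 1) : b ≠ 0 := by
  intro hb
  rw [hb, mul_zero'] at h
  exact NearField.zero_ne_one h

/-- the affine permutation `x ↦ x * a + b`. -/
def aff (a a' b : F) (h1 : a * a' = 1) (h2 : a' * a = 1) : Equiv.Perm F where
  toFun x := x * a + b
  invFun y := (y + -b) * a'
  left_inv x := by
    change ((x * a + b) + -b) * a' = x
    rw [add_neg_cancel_right, mul_assoc, h1, mul_one]
  right_inv y := by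
    change ((y + -b) * a') * a + b = y
    rw [mul_assoc, h2, mul_one, neg_add_cancel_right]

theorem aff_apply (a a' b : F) (h1 : a * a' = 1) (h2 : a' * a = 1) (x : F) :
    aff a a' b h1 h2 x = x * a + b := rfl

/-- the affine group of a near-field. -/
def affGroup (F : Type*) [NearField F] : Subgroup (Equiv.Perm F) where
  carrier := {σ | ∃ a b : F, a ≠ 0 ∧ ∀ x : F, σ x = x * a + b}
  one_mem' := ⟨1, 0, fun h => NearField.zero_ne_one h.symm, fun x => by simp⟩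
  mul_mem' := by
    rintro σ τ ⟨a, b, ha, hσ⟩ ⟨c, d, hc, hτ⟩
    refine ⟨c * a, d * a + b, mul_ne_zero' hc ha, fun x => ?_⟩
    rw [Equiv.Perm.mul_apply, hτ, hσ, add_mul', mul_assoc, add_assoc]
  inv_mem' := by
    rintro σ ⟨a, b, ha, hσ⟩
    obtain ⟨a', h1, h2⟩ := NearField.exists_inv a ha
    refine ⟨a', (-b) * a', inv_ne_zero' h1, fun y => ?_⟩
    apply σ.injective
    have h0 : σ (σ⁻¹ y) = y := by
      rw [← Equiv.Perm.mul_apply, mul_inv_cancel]; rfl
    rw [h0, hσ, add_mul', mul_assoc, mul_assoc, h2, mul_one, mul_one,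
      neg_add_cancel_right]

theorem mem_affGroup (σ : Equiv.Perm F) :
    σ ∈ affGroup F ↔ ∃ a b : F, a ≠ 0 ∧ ∀ x : F, σ x = x * a + b := Iff.rfl

theorem affGroup_two_trans {x₁ x₂ y₁ y₂ : F} (hx : x₁ ≠ x₂) (hy : y₁ ≠ y₂) :
    ∃ g : affGroup F, g • x₁ = y₁ ∧ g • x₂ = y₂ := by
  have hx' : x₁ - x₂ ≠ 0 := sub_ne_zero.mpr hx
  have hy' : y₁ - y₂ ≠ 0 := sub_ne_zero.mpr hy
  obtain ⟨c, hc1, hc2⟩ := NearField.exists_inv _ hx'
  have ha : c * (y₁ - y₂) ≠ 0 := mul_ne_zero' (inv_ne_zero' hc1) hy'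
  obtain ⟨a', h1, h2⟩ := NearField.exists_inv _ ha
  have hkey : x₁ * (c * (y₁ - y₂)) - x₂ * (c * (y₁ - y₂)) = y₁ - y₂ := by
    rw [← sub_mul', ← mul_assoc, hc1, one_mul]
  refine ⟨⟨aff (c * (y₁ - y₂)) a' (-(x₁ * (c * (y₁ - y₂))) + y₁) h1 h2,
    ⟨_, _, ha, fun x => rfl⟩⟩, ?_, ?_⟩
  · change x₁ * (c * (y₁ - y₂)) + (-(x₁ * (c * (y₁ - y₂))) + y₁) = y₁
    rw [add_neg_cancel_left]
  · change x₂ * (c * (y₁ - y₂)) + (-(x₁ * (c * (y₁ - y₂))) + y₁) = y₂
    have h3 : x₂ * (c * (y₁ - y₂)) + -(x₁ * (c * (y₁ - y₂))) = -(y₁ - y₂) := by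
      have h4 := congrArg (fun t => -t) hkey
      simp only [neg_sub] at h4
      rw [neg_sub, ← h4]
      exact (sub_eq_add_neg _ _).symm
    rw [← add_assoc, h3, neg_sub, sub_add_cancel]

theorem affGroup_sharp {x₁ x₂ : F} (hx : x₁ ≠ x₂) (g : affGroup F) (h1 : g • x₁ = x₁) (h2 : g • x₂ = x₂) :
    g = 1 := by
  obtain ⟨a, b, ha, hg⟩ := g.2
  have e1 : x₁ * a + b = x₁ := (hg x₁).symm.trans h1
  have e2 : x₂ * a + b = x₂ := (hg x₂).symm.trans h2
  have hx' : x₁ - x₂ ≠ 0 := sub_ne_zero.mpr hx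
  obtain ⟨c, hc1, hc2⟩ := NearField.exists_inv _ hx'
  have h3 : (x₁ - x₂) * a = x₁ - x₂ := by
    rw [sub_mul']
    calc x₁ * a - x₂ * a = (x₁ * a + b) - (x₂ * a + b) := by rw [add_sub_add_right_eq_sub]
      _ = x₁ - x₂ := by rw [e1, e2]
  have ha1 : a = 1 := by
    calc a = (c * (x₁ - x₂)) * a := by rw [hc2, one_mul]
      _ = c * ((x₁ - x₂) * a) := by rw [mul_assoc]
      _ = 1 := by rw [h3, hc2]
  have hb : b = 0 := by
    rw [ha1, mul_one] at e1
    exact left_eq_add.mp e1.symm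
  ext x
  change (g : Equiv.Perm F) x = x
  rw [hg, ha1, hb, mul_one, add_zero]

end Cfsg.Agent.Lib.Helper29.NF
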