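import Mathlib
import Cfsg.Prelude.Def_Classical
import Cfsg.Prelude.Def_ClassicalGeometry

/-! The adjoint homomorphism `GL₂(F) → GO₃(F)` for the form `x₀² + x₁ y₁`. -/

set_option autoImplicit false

namespace Cfsg.Agent.Lib.Helper29.O3

open Matrix

variable {F : Type*} [Field F]

abbrev J := Unit ⊕ (Fin 1 ⊕ Fin 1)

/-- the obvious bijection -/
def eJ : J ≃ Fin 3 where
  toFun := Sum.elim (fun _ => 0) (Sum.elim (fun _ => 1) (fun _ => 2))
  invFun := ![Sum.inl (), Sum.inr (Sum.inl 0), Sum.inr (Sum.inr 0)]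
  left_inv := by
    rintro (i | i | i)
    · rfl
    · rw [Subsingleton.elim i 0]; rfl
    · rw [Subsingleton.elim i 0]; rfl
  right_inv := by
    intro i; fin_cases i <;> rfl

def lift (A : Matrix (Fin 3) (Fin 3) F) : Matrix J J F := A.submatrix eJ eJ

theorem lift_mul (A B : Matrix (Fin 3) (Fin 3) F) : lift (A * B) = lift A * lift B :=
  (Matrix.submatrix_mul_equiv A B eJ eJ eJ).symm

theorem lift_one : lift (1 : Matrix (Fin 3) (Fin 3) F) = 1 := Matrix.submatrix_one_equiv eJ

theorem det_lift (A : Matrix (Fin 3) (Fin 3) F) : (lift A).det = A.det :=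
  Matrix.det_submatrix_equiv_self eJ A

theorem lift_inj {A B : Matrix (Fin 3) (Fin 3) F} (h : lift A = lift B) : A = B := by
  ext i j
  have := congrFun (congrFun h (eJ.symm i)) (eJ.symm j)
  simpa [lift] using this

theorem lift_neg (A : Matrix (Fin 3) (Fin 3) F) : lift (-A) = -lift A := rfl

def q3 (w : Fin 3 → F) : F := w 0 ^ 2 + w 1 * w 2

theorem Q_eq (v : J → F) : Cfsg.quadFormOdd 1 F v = q3 (v ∘ eJ.symm) := by
  simp [Cfsg.quadFormOdd, q3, eJ]

theorem Q_lift (A : Matrix (Fin 3) (Fin 3) F) (v : J → F) :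
    Cfsg.quadFormOdd 1 F (lift A *ᵥ v) = q3 (A *ᵥ (v ∘ eJ.symm)) := by
  rw [Q_eq, lift, Matrix.submatrix_mulVec_equiv]
  congr 1
  ext i
  simp

/-- the polynomial part of the adjoint representation -/
def M3 (a b c d : F) : Matrix (Fin 3) (Fin 3) F :=
  !![a * d + b * c, -(a * c), b * d; -(2 * a * b), a ^ 2, -(b ^ 2); 2 * c * d, -(c ^ 2), d ^ 2]

theorem M3_mul (a b c d a' b' c' d' : F) : M3 a b c d * M3 a' b' c' d' =
    M3 (a * a' + b * c') (a * b' + b * d') (c * a' + d * c') (c * b' + d * d') := by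
  simp only [M3, Matrix.mul_fin_three]
  ext i j
  fin_cases i <;> fin_cases j <;> simp <;> ring

theorem M3_one : M3 (1 : F) 0 0 1 = 1 := by
  ext i j
  fin_cases i <;> fin_cases j <;> simp [M3]

theorem det_M3 (a b c d : F) : (M3 a b c d).det = (a * d - b * c) ^ 3 := by
  rw [M3, Matrix.det_fin_three]
  simp
  ring

theorem q3_M3 (a b c d : F) (w : Fin 3 → F) :
    q3 (M3 a b c d *ᵥ w) = (a * d - b * c) ^ 2 * q3 w := by
  simp [q3, M3, Matrix.mulVec, dotProduct, Fin.sum_univ_three]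
  ring

/-- the adjoint representation, as matrices -/
noncomputable def Phi0 : GL (Fin 2) F →* Matrix J J F where
  toFun g := lift ((g.1.det)⁻¹ • M3 (g 0 0) (g 0 1) (g 1 0) (g 1 1))
  map_one' := by
    simp [M3_one, lift_one]
  map_mul' g h := by
    rw [← lift_mul, Matrix.smul_mul, Matrix.mul_smul, M3_mul, smul_smul]
    congr 2
    · rw [Units.val_mul, Matrix.det_mul, mul_inv]
    · simp [Matrix.mul_apply, Fin.sum_univ_two]

theorem Phi0_apply (g : GL (Fin 2) F) :
    Phi0 g = lift ((g.1.det)⁻¹ • M3 (g 0 0) (g 0 1) (g 1 0) (g 1 1)) := rfl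

theorem det_ne (g : GL (Fin 2) F) : g 0 0 * g 1 1 - g 0 1 * g 1 0 ≠ 0 := by
  have := Matrix.GeneralLinearGroup.det_ne_zero g
  rwa [Matrix.det_fin_two] at this

theorem det_eq (g : GL (Fin 2) F) : g.1.det = g 0 0 * g 1 1 - g 0 1 * g 1 0 :=
  Matrix.det_fin_two _

noncomputable def PhiU : GL (Fin 2) F →* GL J F := Phi0.toHomUnits

theorem Phi_mem (g : GL (Fin 2) F) :
    PhiU g ∈ Cfsg.isometryGroup F (Cfsg.quadFormOdd 1 F) := by
  intro v _
  show Cfsg.quadFormOdd 1 F (Phi0 g *ᵥ v) = Cfsg.quadFormOdd 1 F v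
  rw [Phi0_apply, Q_lift, Q_eq, Matrix.smul_mulVec]
  have h1 : ∀ (r : F) (w : Fin 3 → F), q3 (r • w) = r ^ 2 * q3 w := by
    intro r w; simp [q3]; ring
  rw [h1, q3_M3, det_eq]
  have := det_ne g
  field_simp

/-- the adjoint representation `GL₂(F) → GO₃(F)`. -/
noncomputable def Phi : GL (Fin 2) F →* Cfsg.isometryGroup F (Cfsg.quadFormOdd 1 F) where
  toFun g := ⟨PhiU g, Phi_mem g⟩
  map_one' := Subtype.ext (map_one PhiU)
  map_mul' g h := Subtype.ext (map_mul PhiU g h)

theorem Phi_val (g : GL (Fin 2) F) : ((Phi g : GL J F) : Matrix J J F) = Phi0 g := rfl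

theorem det_Phi (g : GL (Fin 2) F) : ((Phi g : GL J F) : Matrix J J F).det = 1 := by
  rw [Phi_val, Phi0_apply, det_lift, Matrix.det_smul, det_M3, det_eq]
  have := det_ne g
  simp only [Fintype.card_fin]
  field_simp

theorem Phi_ker : (Phi : GL (Fin 2) F →* _).ker = Subgroup.center (GL (Fin 2) F) := by
  ext g
  rw [MonoidHom.mem_ker, GeneralLinearGroup.center_eq_range_scalar]
  constructor
  · intro h
    have h1 : Phi0 g = 1 := by
      rw [← Phi_val, h]; rfl
    rw [Phi0_apply, ← lift_one] at h1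
    have h2 := lift_inj h1
    have hd := det_ne g
    have hdi : (g.1.det)⁻¹ ≠ 0 := by rw [det_eq]; exact inv_ne_zero hd
    have e12 : (g.1.det)⁻¹ * -(g 0 1 ^ 2) = 0 := by
      simpa [M3] using congrFun (congrFun h2 1) 2
    have e21 : (g.1.det)⁻¹ * -(g 1 0 ^ 2) = 0 := by
      simpa [M3] using congrFun (congrFun h2 2) 1
    have e11 : (g.1.det)⁻¹ * (g 0 0 ^ 2) = 1 := by
      simpa [M3] using congrFun (congrFun h2 1) 1
    have b0 : g 0 1 = 0 := by
      have := (mul_eq_zero.1 e12).resolve_left hdi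
      simpa using this
    have c0 : g 1 0 = 0 := by
      have := (mul_eq_zero.1 e21).resolve_left hdi
      simpa using this
    rw [det_eq, b0, c0] at e11
    rw [b0, c0] at hd
    have ha : g 0 0 ≠ 0 := by
      intro h0; apply hd; rw [h0]; ring
    have hdd : g 1 1 ≠ 0 := by
      intro h0; apply hd; rw [h0]; ring
    have had : g 1 1 = g 0 0 := by
      field_simp at e11
      have : g 0 0 * (g 0 0 - g 1 1) = 0 := by linear_combination e11
      have := (mul_eq_zero.1 this).resolve_left ha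
      linear_combination -this
    refine ⟨Units.mk0 _ ha, ?_⟩
    apply Units.ext
    ext i j
    fin_cases i <;> fin_cases j
    · simp
    · simpa using b0.symm
    · simpa using c0.symm
    · simpa using had.symm
  · rintro ⟨u, rfl⟩
    apply Subtype.ext; apply Units.ext
    show Phi0 _ = 1
    rw [Phi0_apply, ← lift_one]
    congr 1
    have hu : (u : F) ≠ 0 := u.ne_zero
    ext i j
    fin_cases i <;> fin_cases j <;> simp [M3, Matrix.det_fin_two] <;> field_simp

end Cfsg.Agent.Lib.Helper29.O3
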