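import Mathlib
import Cfsg.Agent.Lib.Helper29.O3
import Cfsg.Agent.Lib.Helper12.GLCard
import Cfsg.Agent.S0286

/-! `GO₃(q) = {±1} × Φ(GL₂(q))` for odd `q`. -/

set_option autoImplicit false

namespace Cfsg.Agent.Lib.Helper29.O3

open Matrix

variable {F : Type*} [Field F]

theorem neg_one_mem : (-1 : GL J F) ∈ Cfsg.isometryGroup F (Cfsg.quadFormOdd 1 F) := by
  intro v _
  show Cfsg.quadFormOdd 1 F ((-1 : Matrix J J F) *ᵥ v) = Cfsg.quadFormOdd 1 F v
  rw [Matrix.neg_mulVec, Matrix.one_mulVec, Q_eq, Q_eq]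
  simp [q3]

def negOne : Cfsg.isometryGroup F (Cfsg.quadFormOdd 1 F) := ⟨-1, neg_one_mem⟩

theorem negOne_mul_self : (negOne : Cfsg.isometryGroup F (Cfsg.quadFormOdd 1 F)) * negOne = 1 := by
  apply Subtype.ext
  show (-1 : GL J F) * (-1) = 1
  simp

theorem negOne_comm (x : Cfsg.isometryGroup F (Cfsg.quadFormOdd 1 F)) :
    negOne * x = x * negOne := by
  apply Subtype.ext
  show (-1 : GL J F) * x.1 = x.1 * (-1)
  simp

theorem det_negOne : (((negOne : Cfsg.isometryGroup F (Cfsg.quadFormOdd 1 F)) : GL J F) :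
    Matrix J J F).det = -1 := by
  show (-1 : Matrix J J F).det = -1
  rw [Matrix.det_neg, Matrix.det_one]
  simp [Fintype.card_sum]
  norm_num

theorem card_range [Fintype F] :
    Nat.card (Phi : GL (Fin 2) F →* _).range = Fintype.card F * (Fintype.card F ^ 2 - 1) := by
  classical
  have h1 := (Phi : GL (Fin 2) F →* _).ker.card_mul_index
  rw [Subgroup.index_ker, Phi_ker, Cfsg.Agent.Lib.Helper12.card_center_GL 2 (by norm_num),
    Matrix.card_GL_field, Fin.prod_univ_two, Nat.card_eq_fintype_card, Fintype.card_units] at h1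
  have hq : 2 ≤ Fintype.card F := Fintype.one_lt_card
  obtain ⟨r, hr⟩ : ∃ r, Fintype.card F = r + 2 := ⟨Fintype.card F - 2, by omega⟩
  rw [hr] at h1 ⊢
  have e1 : r + 2 - 1 = r + 1 := by omega
  have e2 : (r + 2) ^ 2 - (r + 2) ^ ((1 : Fin 2) : ℕ) = (r + 1) * (r + 2) := by
    have : (r + 2) ^ 2 = (r + 1) * (r + 2) + (r + 2) ^ ((1 : Fin 2) : ℕ) := by
      simp; ring
    omega
  have e3 : (r + 2) ^ ((0 : Fin 2) : ℕ) = 1 := by simp
  rw [e1, e2, e3] at h1
  have : (r + 1) * Nat.card (Phi : GL (Fin 2) F →* _).range =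
      (r + 1) * ((r + 2) * ((r + 2) ^ 2 - 1)) := by
    rw [h1]; ring
  exact Nat.eq_of_mul_eq_mul_left (by omega) this

theorem index_range [Fintype F] (hodd : Odd (Fintype.card F)) :
    (Phi : GL (Fin 2) F →* _).range.index = 2 := by
  have h1 := (Phi : GL (Fin 2) F →* _).range.card_mul_index
  rw [card_range, Cfsg.Agent.S0286.result rfl hodd 1] at h1
  simp only [Finset.prod_range_one] at h1
  have hq : 2 ≤ Fintype.card F := Fintype.one_lt_card
  have hpos : 0 < Fintype.card F * (Fintype.card F ^ 2 - 1) := by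
    apply Nat.mul_pos (by omega)
    have : 2 ^ 2 ≤ Fintype.card F ^ 2 := Nat.pow_le_pow_left hq 2
    omega
  apply Nat.eq_of_mul_eq_mul_left hpos
  rw [h1]
  ring_nf

theorem two_ne_zero' [Fintype F] (hodd : Odd (Fintype.card F)) : (2 : F) ≠ 0 := by
  apply Ring.two_ne_zero
  intro h2
  have := FiniteField.even_card_of_char_two h2
  rcases hodd with ⟨k, hk⟩
  omega

theorem negOne_not_mem [Fintype F] (hodd : Odd (Fintype.card F)) :
    (negOne : Cfsg.isometryGroup F (Cfsg.quadFormOdd 1 F)) ∉ (Phi : GL (Fin 2) F →* _).range := by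
  rintro ⟨g, hg⟩
  have h1 := det_Phi g
  rw [hg, det_negOne] at h1
  apply two_ne_zero' hodd
  linear_combination -h1

theorem exists_pm [Fintype F] (hodd : Odd (Fintype.card F))
    (x : Cfsg.isometryGroup F (Cfsg.quadFormOdd 1 F)) :
    ∃ g : GL (Fin 2) F, x = Phi g ∨ x = negOne * Phi g := by
  by_cases hx : x ∈ (Phi : GL (Fin 2) F →* _).range
  · obtain ⟨g, hg⟩ := hx
    exact ⟨g, Or.inl hg.symm⟩
  · have := (Subgroup.mul_mem_iff_of_index_two (index_range hodd) (a := negOne) (b := x)).2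
      ⟨fun h => absurd h (negOne_not_mem hodd), fun h => absurd h hx⟩
    obtain ⟨g, hg⟩ := this
    refine ⟨g, Or.inr ?_⟩
    rw [hg, ← mul_assoc, negOne_mul_self, one_mul]

end Cfsg.Agent.Lib.Helper29.O3
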