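import Mathlib
import Cfsg.Prelude.Def_Classical

/-! The tensor homomorphism `GL₂(F) × GL₂(F) → GL₄(F)` and the form `x₁ y₁ + x₂ y₂`. -/

set_option autoImplicit false

namespace Cfsg.Agent.Lib.Helper29.O4

open Matrix

variable {F : Type*} [Field F]

abbrev J4 := Fin 2 ⊕ Fin 2

/-- the obvious bijection -/
def eJ4 : J4 ≃ Fin 4 where
  toFun := Sum.elim ![0, 1] ![2, 3]
  invFun := ![Sum.inl 0, Sum.inl 1, Sum.inr 0, Sum.inr 1]
  left_inv := by
    rintro (i | i) <;> fin_cases i <;> rfl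
  right_inv := by
    intro i; fin_cases i <;> rfl

def lift (A : Matrix (Fin 4) (Fin 4) F) : Matrix J4 J4 F := A.submatrix eJ4 eJ4

theorem lift_mul (A B : Matrix (Fin 4) (Fin 4) F) : lift (A * B) = lift A * lift B :=
  (Matrix.submatrix_mul_equiv A B eJ4 eJ4 eJ4).symm

theorem lift_one : lift (1 : Matrix (Fin 4) (Fin 4) F) = 1 := Matrix.submatrix_one_equiv eJ4

theorem lift_inj {A B : Matrix (Fin 4) (Fin 4) F} (h : lift A = lift B) : A = B := by
  ext i j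
  have := congrFun (congrFun h (eJ4.symm i)) (eJ4.symm j)
  simpa [lift] using this

def q4 (w : Fin 4 → F) : F := w 0 * w 2 + w 1 * w 3

theorem Q_eq (v : J4 → F) : Cfsg.quadFormPlus 2 F v = q4 (v ∘ eJ4.symm) := by
  simp [Cfsg.quadFormPlus, q4, eJ4, Fin.sum_univ_two]

theorem Q_lift (A : Matrix (Fin 4) (Fin 4) F) (v : J4 → F) :
    Cfsg.quadFormPlus 2 F (lift A *ᵥ v) = q4 (A *ᵥ (v ∘ eJ4.symm)) := by
  rw [Q_eq, lift, Matrix.submatrix_mulVec_equiv]
  congr 1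
  ext i
  simp

/-- `X ↦ g X kᵀ` in the coordinates `X = [[w₀, w₁], [-w₃, w₂]]`. -/
def K4 (a b c d a' b' c' d' : F) : Matrix (Fin 4) (Fin 4) F :=
  !![a * a', a * b', b * b', -(b * a');
     a * c', a * d', b * d', -(b * c');
     c * c', c * d', d * d', -(d * c');
     -(c * a'), -(c * b'), -(d * b'), d * a']

theorem K4_mul (a b c d a' b' c' d' e f g h e' f' g' h' : F) :
    K4 a b c d a' b' c' d' * K4 e f g h e' f' g' h' =
    K4 (a * e + b * g) (a * f + b * h) (c * e + d * g) (c * f + d * h)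
      (a' * e' + b' * g') (a' * f' + b' * h') (c' * e' + d' * g') (c' * f' + d' * h') := by
  ext i j
  fin_cases i <;> fin_cases j <;> simp [K4, Matrix.mul_apply, Fin.sum_univ_four] <;> ring

theorem K4_one : K4 (1 : F) 0 0 1 1 0 0 1 = 1 := by
  ext i j
  fin_cases i <;> fin_cases j <;> simp [K4]

theorem q4_K4 (a b c d a' b' c' d' : F) (w : Fin 4 → F) :
    q4 (K4 a b c d a' b' c' d' *ᵥ w) = (a * d - b * c) * (a' * d' - b' * c') * q4 w := by
  simp [q4, K4, Matrix.mulVec, dotProduct, Fin.sum_univ_four]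
  ring

/-- transposition `X ↦ Xᵀ`. -/
def T4 : Matrix (Fin 4) (Fin 4) F :=
  !![1, 0, 0, 0; 0, 0, 0, -1; 0, 0, 1, 0; 0, -1, 0, 0]

theorem T4_mul_T4 : (T4 : Matrix (Fin 4) (Fin 4) F) * T4 = 1 := by
  ext i j
  fin_cases i <;> fin_cases j <;> simp [T4, Matrix.mul_apply, Fin.sum_univ_four]

theorem T4_K4 (a b c d a' b' c' d' : F) :
    T4 * K4 a b c d a' b' c' d' = K4 a' b' c' d' a b c d * T4 := by
  ext i j
  fin_cases i <;> fin_cases j <;> simp [T4, K4, Matrix.mul_apply, Fin.sum_univ_four] <;> ring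

theorem q4_T4 (w : Fin 4 → F) : q4 (T4 *ᵥ w) = q4 w := by
  simp [q4, T4, Matrix.mulVec, dotProduct, Fin.sum_univ_four]
  ring

/-- the tensor representation, as matrices -/
noncomputable def Rho0 : GL (Fin 2) F × GL (Fin 2) F →* Matrix J4 J4 F where
  toFun p := lift (K4 (p.1 0 0) (p.1 0 1) (p.1 1 0) (p.1 1 1) (p.2 0 0) (p.2 0 1) (p.2 1 0) (p.2 1 1))
  map_one' := by
    simp [K4_one, lift_one]
  map_mul' p p' := by
    rw [← lift_mul, K4_mul]
    congr 1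
    simp [Matrix.mul_apply, Fin.sum_univ_two]

theorem Rho0_apply (p : GL (Fin 2) F × GL (Fin 2) F) : Rho0 p =
    lift (K4 (p.1 0 0) (p.1 0 1) (p.1 1 0) (p.1 1 1) (p.2 0 0) (p.2 0 1) (p.2 1 0) (p.2 1 1)) := rfl

noncomputable def RhoU : GL (Fin 2) F × GL (Fin 2) F →* GL J4 F := Rho0.toHomUnits

/-- product of the determinants -/
noncomputable def mu : GL (Fin 2) F × GL (Fin 2) F →* Fˣ :=
  MonoidHom.coprod GeneralLinearGroup.det GeneralLinearGroup.det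

/-- pairs with `det g * det k = 1`. -/
noncomputable def Gam : Subgroup (GL (Fin 2) F × GL (Fin 2) F) := mu.ker

theorem det_eq (g : GL (Fin 2) F) : ((GeneralLinearGroup.det g : Fˣ) : F) =
    g 0 0 * g 1 1 - g 0 1 * g 1 0 :=
  Matrix.det_fin_two _

theorem mem_Gam (p : GL (Fin 2) F × GL (Fin 2) F) : p ∈ (Gam : Subgroup (GL (Fin 2) F × GL (Fin 2) F)) ↔
    (p.1 0 0 * p.1 1 1 - p.1 0 1 * p.1 1 0) * (p.2 0 0 * p.2 1 1 - p.2 0 1 * p.2 1 0) = 1 := by
  rw [Gam, MonoidHom.mem_ker, mu, MonoidHom.coprod_apply, Units.ext_iff, Units.val_mul, det_eq,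
    det_eq, Units.val_one]

theorem Rho_mem (p : GL (Fin 2) F × GL (Fin 2) F) (hp : p ∈ (Gam : Subgroup (GL (Fin 2) F × GL (Fin 2) F))) :
    RhoU p ∈ Cfsg.isometryGroup F (Cfsg.quadFormPlus 2 F) := by
  intro v _
  show Cfsg.quadFormPlus 2 F (Rho0 p *ᵥ v) = Cfsg.quadFormPlus 2 F v
  rw [Rho0_apply, Q_lift, Q_eq, q4_K4, (mem_Gam p).1 hp, one_mul]

/-- the tensor representation `Γ → GO₄⁺(F)`. -/
noncomputable def Rho : (Gam : Subgroup (GL (Fin 2) F × GL (Fin 2) F)) →*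
    Cfsg.isometryGroup F (Cfsg.quadFormPlus 2 F) where
  toFun γ := ⟨RhoU γ.1, Rho_mem γ.1 γ.2⟩
  map_one' := Subtype.ext (map_one RhoU)
  map_mul' γ δ := Subtype.ext (map_mul RhoU γ.1 δ.1)

theorem Rho_val (γ : (Gam : Subgroup (GL (Fin 2) F × GL (Fin 2) F))) :
    ((Rho γ : GL J4 F) : Matrix J4 J4 F) = Rho0 γ.1 := rfl

/-- transposition as an isometry -/
def tauU : GL J4 F := ⟨lift T4, lift T4, by rw [← lift_mul, T4_mul_T4, lift_one],
  by rw [← lift_mul, T4_mul_T4, lift_one]⟩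

theorem tau_mem : (tauU : GL J4 F) ∈ Cfsg.isometryGroup F (Cfsg.quadFormPlus 2 F) := by
  intro v _
  show Cfsg.quadFormPlus 2 F (lift T4 *ᵥ v) = Cfsg.quadFormPlus 2 F v
  rw [Q_lift, Q_eq, q4_T4]

def tau : Cfsg.isometryGroup F (Cfsg.quadFormPlus 2 F) := ⟨tauU, tau_mem⟩

theorem tau_mul_tau : (tau : Cfsg.isometryGroup F (Cfsg.quadFormPlus 2 F)) * tau = 1 := by
  apply Subtype.ext; apply Units.ext
  show lift T4 * lift T4 = (1 : Matrix J4 J4 F)
  rw [← lift_mul, T4_mul_T4, lift_one]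

/-- the swap on `Γ` -/
noncomputable def sw (γ : (Gam : Subgroup (GL (Fin 2) F × GL (Fin 2) F))) :
    (Gam : Subgroup (GL (Fin 2) F × GL (Fin 2) F)) :=
  ⟨(γ.1.2, γ.1.1), by
    have := (mem_Gam γ.1).1 γ.2
    rw [mem_Gam]
    linear_combination this⟩

theorem tau_Rho (γ : (Gam : Subgroup (GL (Fin 2) F × GL (Fin 2) F))) :
    tau * Rho γ = Rho (sw γ) * tau := by
  apply Subtype.ext; apply Units.ext
  show lift T4 * Rho0 γ.1 = Rho0 (sw γ).1 * lift T4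
  rw [Rho0_apply, Rho0_apply, ← lift_mul, ← lift_mul, T4_K4]
  rfl

theorem tau_not_mem : (tau : Cfsg.isometryGroup F (Cfsg.quadFormPlus 2 F)) ∉
    (Rho : (Gam : Subgroup (GL (Fin 2) F × GL (Fin 2) F)) →* _).range := by
  rintro ⟨γ, hγ⟩
  have h1 : Rho0 γ.1 = lift T4 := by
    rw [← Rho_val, hγ]; rfl
  rw [Rho0_apply] at h1
  have h2 := lift_inj h1
  have hG := (mem_Gam γ.1).1 γ.2
  have e00 : γ.1.1 0 0 * γ.1.2 0 0 = 1 := by simpa [K4, T4] using congrFun (congrFun h2 0) 0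
  have e01 : γ.1.1 0 0 * γ.1.2 0 1 = 0 := by simpa [K4, T4] using congrFun (congrFun h2 0) 1
  have e11 : γ.1.1 0 0 * γ.1.2 1 1 = 0 := by simpa [K4, T4] using congrFun (congrFun h2 1) 1
  have ha : γ.1.1 0 0 ≠ 0 := by
    intro h0; rw [h0] at e00; simp at e00
  have b0 := (mul_eq_zero.1 e01).resolve_left ha
  have d0 := (mul_eq_zero.1 e11).resolve_left ha
  rw [b0, d0] at hG
  simp at hG

end Cfsg.Agent.Lib.Helper29.O4
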