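import Mathlib
import Cfsg.Agent.Lib.Helper29.O4
import Cfsg.Agent.Lib.Helper12.GLCard
import Cfsg.Agent.S0287

/-! `GO₄⁺(q) = ρ(Γ) ⋊ ⟨τ⟩`. -/

set_option autoImplicit false

namespace Cfsg.Agent.Lib.Helper29.O4

open Matrix

variable {F : Type*} [Field F]

/-- scalar matrices -/
def sc (u : Fˣ) : GL (Fin 2) F :=
  ⟨!![(u : F), 0; 0, u], !![((u⁻¹ : Fˣ) : F), 0; 0, ((u⁻¹ : Fˣ) : F)],
    by rw [Matrix.mul_fin_two]; simp [Matrix.one_fin_two],
    by rw [Matrix.mul_fin_two]; simp [Matrix.one_fin_two]⟩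

theorem sc00 (u : Fˣ) : (sc u) 0 0 = (u : F) := rfl
theorem sc01 (u : Fˣ) : (sc u) 0 1 = (0 : F) := rfl
theorem sc10 (u : Fˣ) : (sc u) 1 0 = (0 : F) := rfl
theorem sc11 (u : Fˣ) : (sc u) 1 1 = (u : F) := rfl

theorem sc_one : sc (1 : Fˣ) = 1 := by
  apply Units.ext
  show !![((1 : Fˣ) : F), 0; 0, ((1 : Fˣ) : F)] = 1
  simp [Matrix.one_fin_two]

theorem sc_mul (u v : Fˣ) : sc (u * v) = sc u * sc v := by
  apply Units.ext
  show !![((u * v : Fˣ) : F), 0; 0, ((u * v : Fˣ) : F)] = !![(u : F), 0; 0, u] * !![(v : F), 0; 0, v]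
  rw [Matrix.mul_fin_two]
  simp

/-- the kernel of `ρ` -/
noncomputable def iota : Fˣ →* (Gam : Subgroup (GL (Fin 2) F × GL (Fin 2) F)) where
  toFun u := ⟨(sc u, sc u⁻¹), by
    rw [mem_Gam]
    have : (u : F) * ((u⁻¹ : Fˣ) : F) = 1 := by simp
    simp only [sc00, sc01, sc10, sc11]
    linear_combination ((u : F) * ((u⁻¹ : Fˣ) : F) + 1) * this⟩
  map_one' := by
    apply Subtype.ext
    show (sc 1, sc (1 : Fˣ)⁻¹) = ((1 : GL (Fin 2) F), (1 : GL (Fin 2) F))
    rw [inv_one, sc_one]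
  map_mul' u v := by
    apply Subtype.ext
    show (sc (u * v), sc (u * v)⁻¹) = (sc u * sc v, sc u⁻¹ * sc v⁻¹)
    rw [mul_inv, sc_mul, sc_mul]

theorem iota_val (u : Fˣ) : (iota u).1 = (sc u, sc u⁻¹) := rfl

theorem iota_injective : Function.Injective (iota : Fˣ →* (Gam : Subgroup (GL (Fin 2) F × GL (Fin 2) F))) := by
  intro u v h
  have h1 : sc u = sc v :=
    congrArg (fun γ : (Gam : Subgroup (GL (Fin 2) F × GL (Fin 2) F)) => γ.1.1) h
  have h2 := congrArg (fun g : GL (Fin 2) F => g 0 0) h1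
  exact Units.ext h2

theorem Rho_ker : (Rho : (Gam : Subgroup (GL (Fin 2) F × GL (Fin 2) F)) →* _).ker = iota.range := by
  ext γ
  rw [MonoidHom.mem_ker]
  constructor
  · intro h
    have h1 : Rho0 γ.1 = 1 := by
      rw [← Rho_val, h]; rfl
    rw [Rho0_apply, ← lift_one] at h1
    have h2 := lift_inj h1
    have e00 : γ.1.1 0 0 * γ.1.2 0 0 = 1 := by simpa [K4] using congrFun (congrFun h2 0) 0
    have e01 : γ.1.1 0 0 * γ.1.2 0 1 = 0 := by simpa [K4] using congrFun (congrFun h2 0) 1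
    have e03 : γ.1.1 0 1 * γ.1.2 0 0 = 0 := by simpa [K4] using congrFun (congrFun h2 0) 3
    have e10 : γ.1.1 0 0 * γ.1.2 1 0 = 0 := by simpa [K4] using congrFun (congrFun h2 1) 0
    have e11 : γ.1.1 0 0 * γ.1.2 1 1 = 1 := by simpa [K4] using congrFun (congrFun h2 1) 1
    have e30 : γ.1.1 1 0 * γ.1.2 0 0 = 0 := by simpa [K4] using congrFun (congrFun h2 3) 0
    have e33 : γ.1.1 1 1 * γ.1.2 0 0 = 1 := by simpa [K4] using congrFun (congrFun h2 3) 3
    have ha : γ.1.1 0 0 ≠ 0 := by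
      intro h0; rw [h0] at e00; simp at e00
    have ha' : γ.1.2 0 0 ≠ 0 := by
      intro h0; rw [h0] at e00; simp at e00
    have b' := (mul_eq_zero.1 e01).resolve_left ha
    have c' := (mul_eq_zero.1 e10).resolve_left ha
    have b := (mul_eq_zero.1 e03).resolve_right ha'
    have c := (mul_eq_zero.1 e30).resolve_right ha'
    have d : γ.1.1 1 1 = γ.1.1 0 0 := by
      have : (γ.1.1 1 1 - γ.1.1 0 0) * γ.1.2 0 0 = 0 := by linear_combination e33 - e00
      have := (mul_eq_zero.1 this).resolve_right ha'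
      linear_combination this
    have d' : γ.1.2 1 1 = γ.1.2 0 0 := by
      have : γ.1.1 0 0 * (γ.1.2 1 1 - γ.1.2 0 0) = 0 := by linear_combination e11 - e00
      have := (mul_eq_zero.1 this).resolve_left ha
      linear_combination this
    have hinv : γ.1.2 0 0 = (γ.1.1 0 0)⁻¹ := eq_inv_of_mul_eq_one_right e00
    refine ⟨Units.mk0 _ ha, ?_⟩
    apply Subtype.ext
    rw [iota_val]
    apply Prod.ext
    · apply Units.ext
      ext i j
      fin_cases i <;> fin_cases j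
      · rfl
      · exact b.symm
      · exact c.symm
      · exact d.symm
    · apply Units.ext
      ext i j
      have hv : (((Units.mk0 _ ha)⁻¹ : Fˣ) : F) = γ.1.2 0 0 := by
        rw [hinv]; simp
      fin_cases i <;> fin_cases j
      · exact hv
      · exact b'.symm
      · exact c'.symm
      · exact hv.trans d'.symm
  · rintro ⟨u, rfl⟩
    apply Subtype.ext; apply Units.ext
    show Rho0 _ = 1
    rw [Rho0_apply, ← lift_one, iota_val]
    congr 1
    simp only [sc00, sc01, sc10, sc11]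
    rw [← K4_one]
    have : (u : F) * ((u⁻¹ : Fˣ) : F) = 1 := by simp
    ext i j
    fin_cases i <;> fin_cases j <;> simp [K4]

theorem card_GL2 [Fintype F] : Nat.card (GL (Fin 2) F) =
    (Fintype.card F - 1) * (Fintype.card F * (Fintype.card F ^ 2 - 1)) := by
  rw [Matrix.card_GL_field, Fin.prod_univ_two]
  have hq : 2 ≤ Fintype.card F := Fintype.one_lt_card
  obtain ⟨r, hr⟩ : ∃ r, Fintype.card F = r + 2 := ⟨Fintype.card F - 2, by omega⟩
  rw [hr]
  have e1 : r + 2 - 1 = r + 1 := by omega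
  have e2 : (r + 2) ^ 2 - (r + 2) ^ ((1 : Fin 2) : ℕ) = (r + 1) * (r + 2) := by
    have : (r + 2) ^ 2 = (r + 1) * (r + 2) + (r + 2) ^ ((1 : Fin 2) : ℕ) := by
      simp; ring
    omega
  have e3 : (r + 2) ^ ((0 : Fin 2) : ℕ) = 1 := by simp
  rw [e1, e2, e3]
  ring

theorem card_range [Fintype F] :
    Nat.card (Rho : (Gam : Subgroup (GL (Fin 2) F × GL (Fin 2) F)) →* _).range =
      (Fintype.card F * (Fintype.card F ^ 2 - 1)) * (Fintype.card F * (Fintype.card F ^ 2 - 1)) := by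
  classical
  have hu : Nat.card Fˣ = Fintype.card F - 1 := by
    rw [Nat.card_eq_fintype_card, Fintype.card_units]
  have h1 := (mu : GL (Fin 2) F × GL (Fin 2) F →* Fˣ).ker.card_mul_index
  have hsurj : Function.Surjective (mu : GL (Fin 2) F × GL (Fin 2) F →* Fˣ) := by
    intro u
    obtain ⟨g, hg⟩ := Cfsg.Agent.Lib.Helper12.det_surjective (F := F) 2 (by norm_num) u
    exact ⟨(g, 1), by simp [mu, hg]⟩
  rw [Subgroup.index_ker, MonoidHom.range_eq_top.mpr hsurj, Subgroup.card_top, Nat.card_prod,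
    card_GL2, hu] at h1
  have h2 := (Rho : (Gam : Subgroup (GL (Fin 2) F × GL (Fin 2) F)) →* _).ker.card_mul_index
  rw [Subgroup.index_ker, Rho_ker, Nat.card_congr (MonoidHom.ofInjective iota_injective).toEquiv.symm,
    hu] at h2
  have h3 : Nat.card (Gam : Subgroup (GL (Fin 2) F × GL (Fin 2) F)) =
      Nat.card (mu : GL (Fin 2) F × GL (Fin 2) F →* Fˣ).ker := rfl
  rw [h3] at h2
  rw [← h2] at h1
  have hq : 2 ≤ Fintype.card F := Fintype.one_lt_card
  have hpos : 0 < (Fintype.card F - 1) * (Fintype.card F - 1) := Nat.mul_pos (by omega) (by omega)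
  apply Nat.eq_of_mul_eq_mul_left hpos
  calc _ = (Fintype.card F - 1) * Nat.card (Rho : (Gam : Subgroup (GL (Fin 2) F × GL (Fin 2) F)) →* _).range *
        (Fintype.card F - 1) := by ring
    _ = _ := by rw [h1]; ring

theorem index_range [Fintype F] :
    (Rho : (Gam : Subgroup (GL (Fin 2) F × GL (Fin 2) F)) →* _).range.index = 2 := by
  have h1 := (Rho : (Gam : Subgroup (GL (Fin 2) F × GL (Fin 2) F)) →* _).range.card_mul_index
  rw [card_range, Cfsg.Agent.S0287.result rfl 2 (by norm_num)] at h1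
  simp only [Nat.add_one_sub_one, Nat.reduceSub, Finset.prod_range_one] at h1
  have hq : 2 ≤ Fintype.card F := Fintype.one_lt_card
  have hpos : 0 < Fintype.card F * (Fintype.card F ^ 2 - 1) := by
    apply Nat.mul_pos (by omega)
    have : 2 ^ 2 ≤ Fintype.card F ^ 2 := Nat.pow_le_pow_left hq 2
    omega
  apply Nat.eq_of_mul_eq_mul_left (Nat.mul_pos hpos hpos)
  rw [h1]
  ring_nf

theorem exists_pm [Fintype F] (x : Cfsg.isometryGroup F (Cfsg.quadFormPlus 2 F)) :
    ∃ γ : (Gam : Subgroup (GL (Fin 2) F × GL (Fin 2) F)), x = Rho γ ∨ x = Rho γ * tau := by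
  by_cases hx : x ∈ (Rho : (Gam : Subgroup (GL (Fin 2) F × GL (Fin 2) F)) →* _).range
  · obtain ⟨g, hg⟩ := hx
    exact ⟨g, Or.inl hg.symm⟩
  · have := (Subgroup.mul_mem_iff_of_index_two index_range (a := x) (b := tau)).2
      ⟨fun h => absurd h hx, fun h => absurd h tau_not_mem⟩
    obtain ⟨g, hg⟩ := this
    refine ⟨g, Or.inr ?_⟩
    rw [hg, mul_assoc, tau_mul_tau, mul_one]

end Cfsg.Agent.Lib.Helper29.O4
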