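import Mathlib
import Cfsg.Agent.S0306

/-! Coordinates on the quadratic extension of a finite field given by an anisotropic binary form. -/

set_option autoImplicit false

namespace Cfsg.Agent.Lib.Helper29.O4m

open Matrix Cfsg.Agent.S0306

/-- coordinates `K ≃ F × F` turning `K` into `F[θ]`, `θ² = aθ - b`. -/
structure Coord {F : Type*} (K : Type*) [Field F] [Field K] (a b : F) where
  c : K ≃ F × F
  add : ∀ x y, c (x + y) = c x + c y
  mul : ∀ x y, c (x * y) = mulK a b (c x) (c y)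
  one : c 1 = (1, 0)

theorem exists_coord {F K : Type*} [Field F] [Field K] [Fintype F] [Fintype K]
    (hK : Fintype.card K = Fintype.card F ^ 2) {a b : F}
    (hab : ∀ z₁ z₂ : F, z₁ ^ 2 + a * z₁ * z₂ + b * z₂ ^ 2 = 0 → z₁ = 0 ∧ z₂ = 0) :
    Nonempty (Coord K a b) := by
  classical
  letI : CommRing (SK a b) :=
    { (inferInstance : Ring (SK a b)) with
      mul_comm := by
        rintro ⟨_, z, rfl⟩ ⟨_, w, rfl⟩
        apply Subtype.ext
        show Mz a b z * Mz a b w = Mz a b w * Mz a b z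
        rw [Mz_mul, Mz_mul, mulK_comm] }
  haveI : NoZeroDivisors (SK a b) := ⟨by
    rintro ⟨_, z, rfl⟩ ⟨_, w, rfl⟩ h
    have h' : Mz a b z * Mz a b w = 0 := congrArg Subtype.val h
    rw [Mz_mul, ← Mz_zero a b] at h'
    have h0 := Mz_inj a b h'
    have hQ : Qf a b z * Qf a b w = 0 := by rw [← Qf_mul, h0]; simp [Qf]
    rcases mul_eq_zero.1 hQ with h1 | h1
    · left
      apply Subtype.ext
      show Mz a b z = 0
      rw [aniso hab h1, Mz_zero]
    · right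
      apply Subtype.ext
      show Mz a b w = 0
      rw [aniso hab h1, Mz_zero]⟩
  haveI : IsDomain (SK a b) := NoZeroDivisors.to_isDomain _
  let e0 : F × F ≃ SK a b := Equiv.ofBijective (fun z => ⟨Mz a b z, z, rfl⟩)
    ⟨fun z w h => Mz_inj a b (congrArg Subtype.val h), by rintro ⟨_, z, rfl⟩; exact ⟨z, rfl⟩⟩
  letI : Fintype (SK a b) := Fintype.ofEquiv _ e0
  letI : Field (SK a b) := Fintype.fieldOfDomain _
  have hcard : Fintype.card K = Fintype.card (SK a b) := by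
    rw [hK, ← Fintype.card_congr e0, Fintype.card_prod, pow_two]
  let φ : K ≃+* SK a b := FiniteField.ringEquivOfCardEq hcard
  refine ⟨⟨φ.toEquiv.trans e0.symm, ?_, ?_, ?_⟩⟩
  · intro x y
    apply e0.injective
    apply Subtype.ext
    have h1 : ∀ x : K, Mz a b (e0.symm (φ x)) = (φ x).1 := fun x =>
      congrArg Subtype.val (e0.apply_symm_apply (φ x))
    show Mz a b (e0.symm (φ (x + y))) = Mz a b (e0.symm (φ x) + e0.symm (φ y))
    rw [← Mz_add, h1, h1, h1, map_add]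
    rfl
  · intro x y
    apply e0.injective
    apply Subtype.ext
    have h1 : ∀ x : K, Mz a b (e0.symm (φ x)) = (φ x).1 := fun x =>
      congrArg Subtype.val (e0.apply_symm_apply (φ x))
    show Mz a b (e0.symm (φ (x * y))) = Mz a b (mulK a b (e0.symm (φ x)) (e0.symm (φ y)))
    rw [← Mz_mul, h1, h1, h1, map_mul]
    rfl
  · apply e0.injective
    apply Subtype.ext
    have h1 : ∀ x : K, Mz a b (e0.symm (φ x)) = (φ x).1 := fun x =>
      congrArg Subtype.val (e0.apply_symm_apply (φ x))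
    show Mz a b (e0.symm (φ 1)) = Mz a b (1, 0)
    rw [h1, map_one, Mz_one]
    rfl

section mats

variable {F : Type*} [Field F]

abbrev Jm := (Fin 1 ⊕ Fin 1) ⊕ Fin 2

/-- the obvious bijection -/
def eJm : Jm ≃ Fin 4 where
  toFun := Sum.elim (Sum.elim (fun _ => 0) (fun _ => 1)) ![2, 3]
  invFun := ![Sum.inl (Sum.inl 0), Sum.inl (Sum.inr 0), Sum.inr 0, Sum.inr 1]
  left_inv := by
    rintro ((i | i) | i) <;> fin_cases i <;> rfl
  right_inv := by
    intro i; fin_cases i <;> rfl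

def lift (A : Matrix (Fin 4) (Fin 4) F) : Matrix Jm Jm F := A.submatrix eJm eJm

theorem lift_mul (A B : Matrix (Fin 4) (Fin 4) F) : lift (A * B) = lift A * lift B :=
  (Matrix.submatrix_mul_equiv A B eJm eJm eJm).symm

theorem lift_one : lift (1 : Matrix (Fin 4) (Fin 4) F) = 1 := Matrix.submatrix_one_equiv eJm

theorem lift_inj {A B : Matrix (Fin 4) (Fin 4) F} (h : lift A = lift B) : A = B := by
  ext i j
  have := congrFun (congrFun h (eJm.symm i)) (eJm.symm j)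
  simpa [lift] using this

def q4 (a b : F) (w : Fin 4 → F) : F := w 0 * w 1 + (w 2 ^ 2 + a * w 2 * w 3 + b * w 3 ^ 2)

theorem Q_eq (a b : F) (v : Jm → F) : Cfsg.quadFormMinus 1 F a b v = q4 a b (v ∘ eJm.symm) := by
  simp [Cfsg.quadFormMinus, q4, eJm]

theorem Q_lift (a b : F) (A : Matrix (Fin 4) (Fin 4) F) (v : Jm → F) :
    Cfsg.quadFormMinus 1 F a b (lift A *ᵥ v) = q4 a b (A *ᵥ (v ∘ eJm.symm)) := by
  rw [Q_eq, lift, Matrix.submatrix_mulVec_equiv]
  congr 1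
  ext i
  simp

def Tr (a : F) (z : F × F) : F := 2 * z.1 + a * z.2

/-- `X ↦ g X gᴴ` on hermitian matrices `X = [[-x, ζ], [ζ̄, y]]`. -/
def R4 (a b : F) (α β γ δ : F × F) : Matrix (Fin 4) (Fin 4) F :=
  !![Qf a b α, -Qf a b β, -Tr a (mulK a b α (conjK a β)),
      -Tr a (mulK a b (mulK a b α (conjK a β)) (0, 1));
     -Qf a b γ, Qf a b δ, Tr a (mulK a b γ (conjK a δ)),
      Tr a (mulK a b (mulK a b γ (conjK a δ)) (0, 1));
     -(mulK a b α (conjK a γ)).1, (mulK a b β (conjK a δ)).1,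
      (mulK a b α (conjK a δ) + mulK a b β (conjK a γ)).1,
      (mulK a b (mulK a b α (conjK a δ)) (0, 1) + mulK a b (mulK a b β (conjK a γ)) (a, -1)).1;
     -(mulK a b α (conjK a γ)).2, (mulK a b β (conjK a δ)).2,
      (mulK a b α (conjK a δ) + mulK a b β (conjK a γ)).2,
      (mulK a b (mulK a b α (conjK a δ)) (0, 1) + mulK a b (mulK a b β (conjK a γ)) (a, -1)).2]

set_option maxHeartbeats 1600000 in
theorem R4_mul (a b : F) (α β γ δ α' β' γ' δ' : F × F) :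
    R4 a b α β γ δ * R4 a b α' β' γ' δ' =
    R4 a b (mulK a b α α' + mulK a b β γ') (mulK a b α β' + mulK a b β δ')
      (mulK a b γ α' + mulK a b δ γ') (mulK a b γ β' + mulK a b δ δ') := by
  obtain ⟨α1, α2⟩ := α
  obtain ⟨β1, β2⟩ := β
  obtain ⟨γ1, γ2⟩ := γ
  obtain ⟨δ1, δ2⟩ := δ
  obtain ⟨α1', α2'⟩ := α'
  obtain ⟨β1', β2'⟩ := β'
  obtain ⟨γ1', γ2'⟩ := γ'
  obtain ⟨δ1', δ2'⟩ := δ'
  ext i j
  fin_cases i <;> fin_cases j <;>
    simp [R4, mulK, conjK, Qf, Tr, Matrix.mul_apply, Fin.sum_univ_four] <;> ring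

theorem R4_one (a b : F) : R4 a b (1, 0) 0 0 (1, 0) = 1 := by
  ext i j
  fin_cases i <;> fin_cases j <;> simp [R4, mulK, conjK, Qf, Tr]

theorem q4_R4 (a b : F) (α β γ δ : F × F) (w : Fin 4 → F) :
    q4 a b (R4 a b α β γ δ *ᵥ w) =
      Qf a b (mulK a b α δ - mulK a b β γ) * q4 a b w := by
  obtain ⟨α1, α2⟩ := α
  obtain ⟨β1, β2⟩ := β
  obtain ⟨γ1, γ2⟩ := γ
  obtain ⟨δ1, δ2⟩ := δ
  simp [q4, R4, mulK, conjK, Qf, Tr, Matrix.mulVec, dotProduct, Fin.sum_univ_four]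
  ring

/-- conjugation `X ↦ X̄`. -/
def T4 (a : F) : Matrix (Fin 4) (Fin 4) F :=
  !![1, 0, 0, 0; 0, 1, 0, 0; 0, 0, 1, a; 0, 0, 0, -1]

theorem T4_mul_T4 (a : F) : T4 a * T4 a = 1 := by
  ext i j
  fin_cases i <;> fin_cases j <;> simp [T4, Matrix.mul_apply, Fin.sum_univ_four]

set_option maxHeartbeats 1600000 in
theorem T4_R4 (a b : F) (α β γ δ : F × F) :
    T4 a * R4 a b α β γ δ = R4 a b (conjK a α) (conjK a β) (conjK a γ) (conjK a δ) * T4 a := by
  obtain ⟨α1, α2⟩ := α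
  obtain ⟨β1, β2⟩ := β
  obtain ⟨γ1, γ2⟩ := γ
  obtain ⟨δ1, δ2⟩ := δ
  ext i j
  fin_cases i <;> fin_cases j <;>
    simp [T4, R4, mulK, conjK, Qf, Tr, Matrix.mul_apply, Fin.sum_univ_four] <;> ring

theorem q4_T4 (a b : F) (w : Fin 4 → F) : q4 a b (T4 a *ᵥ w) = q4 a b w := by
  simp [q4, T4, Matrix.mulVec, dotProduct, Fin.sum_univ_four]
  ring

end mats

end Cfsg.Agent.Lib.Helper29.O4m
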