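import Mathlib
import Cfsg.Agent.Lib.Helper29.O4m
import Cfsg.Agent.Lib.Helper29.O4b
import Cfsg.Agent.S0288

/-! `GO₄⁻(q) = ρ(Γ) ⋊ ⟨τ⟩` with `Γ ≤ GL₂(q²)`. -/

set_option autoImplicit false

namespace Cfsg.Agent.Lib.Helper29.O4m

open Matrix Cfsg.Agent.S0306

variable {F K : Type*} [Field F] [Field K] {a b : F}

namespace Coord

variable (C : Coord K a b)

theorem zero : C.c 0 = 0 := by
  have := C.add 0 0
  rw [add_zero] at this
  exact left_eq_add.1 this

theorem neg (x : K) : C.c (-x) = -C.c x := by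
  have := C.add x (-x)
  rw [add_neg_cancel, C.zero] at this
  exact (neg_eq_of_add_eq_zero_right this.symm).symm

theorem sub (x y : K) : C.c (x - y) = C.c x - C.c y := by
  rw [sub_eq_add_neg, C.add, C.neg, sub_eq_add_neg]

theorem conj_mulK (z w : F × F) : conjK a (mulK a b z w) = mulK a b (conjK a z) (conjK a w) := by
  simp only [mulK, conjK]; ext <;> simp <;> ring

theorem conj_add (z w : F × F) : conjK a (z + w) = conjK a z + conjK a w := by
  simp only [conjK]; ext <;> simp <;> ring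

/-- the nontrivial automorphism -/
def cj : K →+* K where
  toFun x := C.c.symm (conjK a (C.c x))
  map_one' := by
    apply C.c.injective
    rw [Equiv.apply_symm_apply, C.one]
    simp [conjK]
  map_mul' x y := by
    apply C.c.injective
    rw [Equiv.apply_symm_apply, C.mul, C.mul, Equiv.apply_symm_apply, Equiv.apply_symm_apply,
      conj_mulK]
  map_zero' := by
    apply C.c.injective
    rw [Equiv.apply_symm_apply, C.zero]
    simp [conjK]
  map_add' x y := by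
    apply C.c.injective
    rw [Equiv.apply_symm_apply, C.add, C.add, Equiv.apply_symm_apply, Equiv.apply_symm_apply,
      conj_add]

theorem c_cj (x : K) : C.c (C.cj x) = conjK a (C.c x) := C.c.apply_symm_apply _

/-- the norm -/
def Nm : K →* F where
  toFun x := Qf a b (C.c x)
  map_one' := by rw [C.one]; simp [Qf]
  map_mul' x y := by rw [C.mul, Qf_mul]

theorem Nm_apply (x : K) : C.Nm x = Qf a b (C.c x) := rfl

theorem Nm_cj (x : K) : C.Nm (C.cj x) = C.Nm x := by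
  rw [Nm_apply, c_cj, Qf_conj]; rfl

theorem mul_cj {x : K} (h : C.Nm x = 1) : x * C.cj x = 1 := by
  apply C.c.injective
  rw [C.mul, c_cj, mulK_conj, C.one]
  rw [Nm_apply] at h
  rw [h]

/-- the norm on units -/
def NmU : Kˣ →* Fˣ := Units.map C.Nm

/-- the tensor-hermitian representation, as matrices -/
noncomputable def Rho0 : GL (Fin 2) K →* Matrix Jm Jm F where
  toFun g := lift (R4 a b (C.c (g 0 0)) (C.c (g 0 1)) (C.c (g 1 0)) (C.c (g 1 1)))
  map_one' := by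
    simp [C.one, C.zero, R4_one, lift_one]
  map_mul' g h := by
    rw [← lift_mul, R4_mul]
    congr 1
    simp [Matrix.mul_apply, Fin.sum_univ_two, C.add, C.mul]

theorem Rho0_apply (g : GL (Fin 2) K) : C.Rho0 g =
    lift (R4 a b (C.c (g 0 0)) (C.c (g 0 1)) (C.c (g 1 0)) (C.c (g 1 1))) := rfl

noncomputable def RhoU : GL (Fin 2) K →* GL Jm F := C.Rho0.toHomUnits

/-- matrices whose determinant has norm one -/
noncomputable def Gam : Subgroup (GL (Fin 2) K) := (C.NmU.comp GeneralLinearGroup.det).ker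

theorem mem_Gam (g : GL (Fin 2) K) : g ∈ C.Gam ↔
    C.Nm (g 0 0 * g 1 1 - g 0 1 * g 1 0) = 1 := by
  rw [Gam, MonoidHom.mem_ker, Units.ext_iff]
  show C.Nm ((GeneralLinearGroup.det g : Kˣ) : K) = 1 ↔ _
  rw [Cfsg.Agent.Lib.Helper29.O4.det_eq]

theorem Rho_mem (g : GL (Fin 2) K) (hg : g ∈ C.Gam) :
    C.RhoU g ∈ Cfsg.isometryGroup F (Cfsg.quadFormMinus 1 F a b) := by
  intro v _
  show Cfsg.quadFormMinus 1 F a b (C.Rho0 g *ᵥ v) = Cfsg.quadFormMinus 1 F a b v
  rw [Rho0_apply, Q_lift, Q_eq, q4_R4, ← C.mul, ← C.mul, ← C.sub, ← Nm_apply,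
    (C.mem_Gam g).1 hg, one_mul]

/-- the representation `Γ → GO₄⁻(F)`. -/
noncomputable def Rho : C.Gam →* Cfsg.isometryGroup F (Cfsg.quadFormMinus 1 F a b) where
  toFun γ := ⟨C.RhoU γ.1, C.Rho_mem γ.1 γ.2⟩
  map_one' := Subtype.ext (map_one C.RhoU)
  map_mul' γ δ := Subtype.ext (map_mul C.RhoU γ.1 δ.1)

theorem Rho_val (γ : C.Gam) : ((C.Rho γ : GL Jm F) : Matrix Jm Jm F) = C.Rho0 γ.1 := rfl

end Coord

/-- conjugation as an isometry -/
def tauU (a : F) : GL Jm F := ⟨lift (T4 a), lift (T4 a), by rw [← lift_mul, T4_mul_T4, lift_one],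
  by rw [← lift_mul, T4_mul_T4, lift_one]⟩

theorem tau_mem (a b : F) : tauU a ∈ Cfsg.isometryGroup F (Cfsg.quadFormMinus 1 F a b) := by
  intro v _
  show Cfsg.quadFormMinus 1 F a b (lift (T4 a) *ᵥ v) = Cfsg.quadFormMinus 1 F a b v
  rw [Q_lift, Q_eq, q4_T4]

def tau (a b : F) : Cfsg.isometryGroup F (Cfsg.quadFormMinus 1 F a b) := ⟨tauU a, tau_mem a b⟩

theorem tau_mul_tau (a b : F) : tau a b * tau a b = 1 := by
  apply Subtype.ext; apply Units.ext
  show lift (T4 a) * lift (T4 a) = (1 : Matrix Jm Jm F)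
  rw [← lift_mul, T4_mul_T4, lift_one]

namespace Coord

variable (C : Coord K a b)

/-- entrywise conjugation on `Γ` -/
noncomputable def sw (γ : C.Gam) : C.Gam :=
  ⟨GeneralLinearGroup.map C.cj γ.1, by
    have := (C.mem_Gam γ.1).1 γ.2
    rw [mem_Gam]
    show C.Nm (C.cj (γ.1 0 0) * C.cj (γ.1 1 1) - C.cj (γ.1 0 1) * C.cj (γ.1 1 0)) = 1
    rw [← map_mul, ← map_mul, ← map_sub, Nm_cj, this]⟩

theorem tau_Rho (γ : C.Gam) : tau a b * C.Rho γ = C.Rho (C.sw γ) * tau a b := by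
  apply Subtype.ext; apply Units.ext
  show lift (T4 a) * C.Rho0 γ.1 = C.Rho0 (C.sw γ).1 * lift (T4 a)
  rw [Rho0_apply, Rho0_apply, ← lift_mul, ← lift_mul, T4_R4, ← c_cj, ← c_cj, ← c_cj, ← c_cj]
  rfl

end Coord

namespace Coord

variable (C : Coord K a b)

open Cfsg.Agent.Lib.Helper29.O4 (sc sc00 sc01 sc10 sc11 sc_one sc_mul)

theorem eq_zero_of_Qf
    (hab : ∀ z₁ z₂ : F, z₁ ^ 2 + a * z₁ * z₂ + b * z₂ ^ 2 = 0 → z₁ = 0 ∧ z₂ = 0) {x : K}
    (h : Qf a b (C.c x) = 0) : x = 0 := by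
  apply C.c.injective
  rw [aniso hab h, C.zero]

theorem tau_not_mem [Fintype F]
    (hab : ∀ z₁ z₂ : F, z₁ ^ 2 + a * z₁ * z₂ + b * z₂ ^ 2 = 0 → z₁ = 0 ∧ z₂ = 0) :
    tau a b ∉ C.Rho.range := by
  rintro ⟨γ, hγ⟩
  have h1 : C.Rho0 γ.1 = lift (T4 a) := by
    rw [← Rho_val, hγ]; rfl
  rw [Rho0_apply] at h1
  have h2 := lift_inj h1
  have e01 : Qf a b (C.c (γ.1 0 1)) = 0 := by simpa [R4, T4] using congrFun (congrFun h2 0) 1
  have hβ : C.c (γ.1 0 1) = 0 := aniso hab e01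
  rw [hβ] at h2
  obtain ⟨z, hz⟩ : ∃ z, z = mulK a b (C.c (γ.1 0 0)) (conjK a (C.c (γ.1 1 1))) := ⟨_, rfl⟩
  have e22 : z.1 = 1 := by
    have := congrFun (congrFun h2 2) 2
    rw [hz]
    simpa [R4, T4, mulK] using this
  have e32 : z.2 = 0 := by
    have := congrFun (congrFun h2 3) 2
    rw [hz]
    simpa [R4, T4, mulK] using this
  have e23 : (mulK a b z (0, 1)).1 = a := by
    have := congrFun (congrFun h2 2) 3
    rw [hz]
    simpa [R4, T4, mulK] using this
  have e33 : (mulK a b z (0, 1)).2 = -1 := by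
    have := congrFun (congrFun h2 3) 3
    rw [hz]
    simpa [R4, T4, mulK] using this
  simp only [mulK, e22, e32] at e23 e33
  have ha : a = 0 := by linear_combination -e23
  have h20 : (2 : F) = 0 := by linear_combination e33
  have hchar : ringChar F = 2 := by
    by_contra hne
    exact Ring.two_ne_zero hne h20
  obtain ⟨s, hs⟩ := FiniteField.isSquare_of_char_two hchar b
  have := (hab s 1 (by rw [ha, hs]; linear_combination s ^ 2 * h20)).2
  exact one_ne_zero this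

theorem R4_scalar {α : F × F} (h : Qf a b α = 1) : R4 a b α 0 0 α = 1 := by
  obtain ⟨α1, α2⟩ := α
  simp only [Qf] at h
  ext i j
  fin_cases i <;> fin_cases j <;> simp [R4, mulK, conjK, Qf, Tr, -mul_eq_zero] <;>
    first | ring1 | linear_combination h | linear_combination -h

/-- norm one units -/
def N1 : Subgroup Kˣ := C.NmU.ker

theorem mem_N1 (u : Kˣ) : u ∈ C.N1 ↔ C.Nm (u : K) = 1 := by
  rw [N1, MonoidHom.mem_ker, Units.ext_iff]; rfl

/-- the kernel of `ρ` -/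
noncomputable def iota : C.N1 →* C.Gam where
  toFun u := ⟨sc u.1, by
    rw [mem_Gam, sc00, sc01, sc10, sc11]
    have := (C.mem_N1 u.1).1 u.2
    simp [this]⟩
  map_one' := Subtype.ext sc_one
  map_mul' u v := Subtype.ext (sc_mul u.1 v.1)

theorem iota_val (u : C.N1) : (C.iota u).1 = sc u.1 := rfl

theorem iota_injective : Function.Injective C.iota := by
  intro u v h
  have h1 : sc u.1 = sc v.1 := congrArg Subtype.val h
  have h2 := congrArg (fun g : GL (Fin 2) K => g 0 0) h1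
  exact Subtype.ext (Units.ext h2)

theorem Rho_ker
    (hab : ∀ z₁ z₂ : F, z₁ ^ 2 + a * z₁ * z₂ + b * z₂ ^ 2 = 0 → z₁ = 0 ∧ z₂ = 0) :
    C.Rho.ker = C.iota.range := by
  ext γ
  rw [MonoidHom.mem_ker]
  constructor
  · intro h
    have h1 : C.Rho0 γ.1 = 1 := by
      rw [← Rho_val, h]; rfl
    rw [Rho0_apply, ← lift_one] at h1
    have h2 := lift_inj h1
    have e00 : Qf a b (C.c (γ.1 0 0)) = 1 := by simpa [R4] using congrFun (congrFun h2 0) 0
    have e01 : Qf a b (C.c (γ.1 0 1)) = 0 := by simpa [R4] using congrFun (congrFun h2 0) 1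
    have e10 : Qf a b (C.c (γ.1 1 0)) = 0 := by simpa [R4] using congrFun (congrFun h2 1) 0
    have hβ := C.eq_zero_of_Qf hab e01
    have hγ := C.eq_zero_of_Qf hab e10
    have hβ' : C.c (γ.1 0 1) = 0 := aniso hab e01
    rw [hβ'] at h2
    have e22 : (mulK a b (C.c (γ.1 0 0)) (conjK a (C.c (γ.1 1 1)))).1 = 1 := by
      have := congrFun (congrFun h2 2) 2
      simpa [R4, mulK] using this
    have e32 : (mulK a b (C.c (γ.1 0 0)) (conjK a (C.c (γ.1 1 1)))).2 = 0 := by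
      have := congrFun (congrFun h2 3) 2
      simpa [R4, mulK] using this
    have hxy : γ.1 0 0 * C.cj (γ.1 1 1) = 1 := by
      apply C.c.injective
      rw [C.mul, c_cj, C.one]
      exact Prod.ext e22 e32
    have hxx : γ.1 0 0 * C.cj (γ.1 0 0) = 1 := C.mul_cj e00
    have hx0 : γ.1 0 0 ≠ 0 := by
      intro h0; rw [h0] at hxx; simp at hxx
    have hcj : C.cj (γ.1 1 1) = C.cj (γ.1 0 0) := mul_left_cancel₀ hx0 (hxy.trans hxx.symm)
    have hd : γ.1 1 1 = γ.1 0 0 := C.cj.injective hcj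
    refine ⟨⟨Units.mk0 _ hx0, (C.mem_N1 _).2 e00⟩, ?_⟩
    apply Subtype.ext
    rw [iota_val]
    apply Units.ext
    ext i j
    fin_cases i <;> fin_cases j
    · rfl
    · exact hβ.symm
    · exact hγ.symm
    · exact hd.symm
  · rintro ⟨u, rfl⟩
    apply Subtype.ext; apply Units.ext
    show C.Rho0 _ = 1
    rw [Rho0_apply, ← lift_one, iota_val, sc00, sc01, sc10, sc11, C.zero,
      R4_scalar ((C.mem_N1 u.1).1 u.2)]

theorem NmU_surjective [Fintype F]
    (hab : ∀ z₁ z₂ : F, z₁ ^ 2 + a * z₁ * z₂ + b * z₂ ^ 2 = 0 → z₁ = 0 ∧ z₂ = 0) :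
    Function.Surjective C.NmU := by
  intro f
  obtain ⟨z, hz⟩ := universal hab (f : F)
  have hN : C.Nm (C.c.symm z) = f := by rw [Nm_apply, Equiv.apply_symm_apply, hz]
  have hne : C.c.symm z ≠ 0 := by
    intro h0
    rw [h0, Nm_apply, C.zero] at hN
    apply f.ne_zero
    rw [← hN]; simp [Qf]
  exact ⟨Units.mk0 _ hne, Units.ext hN⟩

theorem card_range [Fintype F] [Fintype K]
    (hab : ∀ z₁ z₂ : F, z₁ ^ 2 + a * z₁ * z₂ + b * z₂ ^ 2 = 0 → z₁ = 0 ∧ z₂ = 0) :
    Nat.card C.Rho.range = Fintype.card K * (Fintype.card K ^ 2 - 1) := by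
  classical
  have hs := C.NmU_surjective hab
  have h1 := (C.NmU.comp (GeneralLinearGroup.det : GL (Fin 2) K →* Kˣ)).ker.card_mul_index
  have hsurj : Function.Surjective (C.NmU.comp (GeneralLinearGroup.det : GL (Fin 2) K →* Kˣ)) :=
    hs.comp (Cfsg.Agent.Lib.Helper12.det_surjective (F := K) 2 (by norm_num))
  rw [Subgroup.index_ker, MonoidHom.range_eq_top.mpr hsurj, Subgroup.card_top,
    Cfsg.Agent.Lib.Helper29.O4.card_GL2] at h1
  have h2 := C.NmU.ker.card_mul_index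
  rw [Subgroup.index_ker, MonoidHom.range_eq_top.mpr hs, Subgroup.card_top,
    Nat.card_eq_fintype_card (α := Kˣ), Fintype.card_units] at h2
  have h3 := C.Rho.ker.card_mul_index
  rw [Subgroup.index_ker, C.Rho_ker hab,
    Nat.card_congr (MonoidHom.ofInjective C.iota_injective).toEquiv.symm] at h3
  have e1 : Nat.card C.Gam =
      Nat.card (C.NmU.comp (GeneralLinearGroup.det : GL (Fin 2) K →* Kˣ)).ker := rfl
  have e2 : Nat.card C.N1 = Nat.card C.NmU.ker := rfl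
  rw [e1] at h3
  rw [e2] at h3
  rw [← h3, ← h2] at h1
  have hpos : 0 < Nat.card C.NmU.ker * Nat.card Fˣ := Nat.mul_pos Nat.card_pos Nat.card_pos
  apply Nat.eq_of_mul_eq_mul_left hpos
  calc _ = Nat.card C.NmU.ker * Nat.card C.Rho.range * Nat.card Fˣ := by ring
    _ = _ := h1

theorem index_range [Fintype F] [Fintype K] (hK : Fintype.card K = Fintype.card F ^ 2)
    (hab : ∀ z₁ z₂ : F, z₁ ^ 2 + a * z₁ * z₂ + b * z₂ ^ 2 = 0 → z₁ = 0 ∧ z₂ = 0) :
    C.Rho.range.index = 2 := by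
  have h1 := C.Rho.range.card_mul_index
  have h2 : Nat.card (Cfsg.isometryGroup F (Cfsg.quadFormMinus 1 F a b)) = _ :=
    Cfsg.Agent.S0288.result rfl 2 (by norm_num) a b hab
  rw [C.card_range hab, h2, hK] at h1
  simp only [Nat.add_one_sub_one, Finset.prod_range_one] at h1
  have hq : 2 ≤ Fintype.card F := Fintype.one_lt_card
  obtain ⟨Q, hQ⟩ : ∃ Q, Fintype.card F ^ 2 = Q + 1 := ⟨Fintype.card F ^ 2 - 1, by
    have : 2 ^ 2 ≤ Fintype.card F ^ 2 := Nat.pow_le_pow_left hq 2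
    omega⟩
  have hQ0 : 0 < Q := by
    have : 2 ^ 2 ≤ Fintype.card F ^ 2 := Nat.pow_le_pow_left hq 2
    omega
  norm_num at h1
  rw [hQ] at h1
  have e1 : (Q + 1) ^ 2 - 1 = (Q + 1 + 1) * Q := by
    have : (Q + 1) ^ 2 = (Q + 1 + 1) * Q + 1 := by ring
    omega
  have e2 : Q + 1 - 1 = Q := by omega
  rw [e1, e2] at h1
  have hpos : 0 < (Q + 1) * ((Q + 1 + 1) * Q) := by positivity
  apply Nat.eq_of_mul_eq_mul_left hpos
  rw [h1]
  ring

theorem exists_pm [Fintype F] [Fintype K] (hK : Fintype.card K = Fintype.card F ^ 2)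
    (hab : ∀ z₁ z₂ : F, z₁ ^ 2 + a * z₁ * z₂ + b * z₂ ^ 2 = 0 → z₁ = 0 ∧ z₂ = 0)
    (x : Cfsg.isometryGroup F (Cfsg.quadFormMinus 1 F a b)) :
    ∃ γ : C.Gam, x = C.Rho γ ∨ x = C.Rho γ * tau a b := by
  by_cases hx : x ∈ C.Rho.range
  · obtain ⟨g, hg⟩ := hx
    exact ⟨g, Or.inl hg.symm⟩
  · have := (Subgroup.mul_mem_iff_of_index_two (C.index_range hK hab) (a := x) (b := tau a b)).2
      ⟨fun h => absurd h hx, fun h => absurd h (C.tau_not_mem hab)⟩
    obtain ⟨g, hg⟩ := this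
    refine ⟨g, Or.inr ?_⟩
    rw [hg, mul_assoc, tau_mul_tau, mul_one]

end Coord

end Cfsg.Agent.Lib.Helper29.O4m
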