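import Mathlib
import Cfsg.Agent.Lib.Helper29.O6
import Cfsg.Agent.Lib.Helper12.GLCard
import Cfsg.Agent.S0287

/-! `GO₆⁺(q) = ρ(Γ) ⋊ ⟨τ⟩` with `Γ ≤ Fˣ × GL₄(q)`. -/

set_option autoImplicit false

namespace Cfsg.Agent.Lib.Helper29.O6

open Matrix

variable {F : Type*} [Field F]

/-- `(c, g) ↦ c Λ²g`, as matrices -/
noncomputable def Rho0 : Fˣ × GL (Fin 4) F →* Matrix J6 J6 F where
  toFun p := lift ((p.1 : F) • L6 (p.2 : Matrix (Fin 4) (Fin 4) F))
  map_one' := by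
    simp [L6_one, lift_one]
  map_mul' p p' := by
    rw [← lift_mul, Matrix.smul_mul, Matrix.mul_smul, smul_smul, ← L6_mul]
    rfl

theorem Rho0_apply (p : Fˣ × GL (Fin 4) F) : Rho0 p =
    lift ((p.1 : F) • L6 (p.2 : Matrix (Fin 4) (Fin 4) F)) := rfl

noncomputable def RhoU : Fˣ × GL (Fin 4) F →* GL J6 F := Rho0.toHomUnits

noncomputable def mu : Fˣ × GL (Fin 4) F →* Fˣ :=
  MonoidHom.coprod (powMonoidHom 2) GeneralLinearGroup.det

/-- pairs with `c² det g = 1`. -/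
noncomputable def Gam : Subgroup (Fˣ × GL (Fin 4) F) := mu.ker

theorem mem_Gam' (p : Fˣ × GL (Fin 4) F) : p ∈ (Gam : Subgroup (Fˣ × GL (Fin 4) F)) ↔
    p.1 ^ 2 * GeneralLinearGroup.det p.2 = 1 := Iff.rfl

theorem mem_Gam (p : Fˣ × GL (Fin 4) F) : p ∈ (Gam : Subgroup (Fˣ × GL (Fin 4) F)) ↔
    (p.1 : F) ^ 2 * (p.2 : Matrix (Fin 4) (Fin 4) F).det = 1 := by
  rw [mem_Gam', Units.ext_iff]
  rfl

theorem q6_smul (r : F) (w : Fin 6 → F) : q6 (r • w) = r ^ 2 * q6 w := by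
  simp [q6]; ring

theorem Rho_mem (p : Fˣ × GL (Fin 4) F) (hp : p ∈ (Gam : Subgroup (Fˣ × GL (Fin 4) F))) :
    RhoU p ∈ Cfsg.isometryGroup F (Cfsg.quadFormPlus 3 F) := by
  intro v _
  show Cfsg.quadFormPlus 3 F (Rho0 p *ᵥ v) = Cfsg.quadFormPlus 3 F v
  rw [Rho0_apply, Q_lift, Q_eq, Matrix.smul_mulVec, q6_smul, q6_L6, ← mul_assoc,
    (mem_Gam p).1 hp, one_mul]

noncomputable def Rho : (Gam : Subgroup (Fˣ × GL (Fin 4) F)) →*
    Cfsg.isometryGroup F (Cfsg.quadFormPlus 3 F) where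
  toFun γ := ⟨RhoU γ.1, Rho_mem γ.1 γ.2⟩
  map_one' := Subtype.ext (map_one RhoU)
  map_mul' γ δ := Subtype.ext (map_mul RhoU γ.1 δ.1)

theorem Rho_val (γ : (Gam : Subgroup (Fˣ × GL (Fin 4) F))) :
    ((Rho γ : GL J6 F) : Matrix J6 J6 F) = Rho0 γ.1 := rfl

def tauU : GL J6 F := ⟨lift T6, lift T6, by rw [← lift_mul, T6_mul_T6, lift_one],
  by rw [← lift_mul, T6_mul_T6, lift_one]⟩

theorem tau_mem : (tauU : GL J6 F) ∈ Cfsg.isometryGroup F (Cfsg.quadFormPlus 3 F) := by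
  intro v _
  show Cfsg.quadFormPlus 3 F (lift T6 *ᵥ v) = Cfsg.quadFormPlus 3 F v
  rw [Q_lift, Q_eq, q6_T6]

def tau : Cfsg.isometryGroup F (Cfsg.quadFormPlus 3 F) := ⟨tauU, tau_mem⟩

theorem tau_mul_tau : (tau : Cfsg.isometryGroup F (Cfsg.quadFormPlus 3 F)) * tau = 1 := by
  apply Subtype.ext; apply Units.ext
  show lift T6 * lift T6 = (1 : Matrix J6 J6 F)
  rw [← lift_mul, T6_mul_T6, lift_one]

/-- inverse transpose -/
def invT (g : GL (Fin 4) F) : GL (Fin 4) F :=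
  ⟨((g⁻¹ : GL (Fin 4) F) : Matrix (Fin 4) (Fin 4) F)ᵀ, (g : Matrix (Fin 4) (Fin 4) F)ᵀ,
    by rw [← Matrix.transpose_mul, ← Units.val_mul, mul_inv_cancel]; simp,
    by rw [← Matrix.transpose_mul, ← Units.val_mul, inv_mul_cancel]; simp⟩

theorem det_invT (g : GL (Fin 4) F) :
    GeneralLinearGroup.det (invT g) = (GeneralLinearGroup.det g)⁻¹ := by
  rw [← map_inv]
  apply Units.ext
  show (((g⁻¹ : GL (Fin 4) F) : Matrix (Fin 4) (Fin 4) F)ᵀ).det = _
  rw [Matrix.det_transpose]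
  rfl

noncomputable def sw (γ : (Gam : Subgroup (Fˣ × GL (Fin 4) F))) :
    (Gam : Subgroup (Fˣ × GL (Fin 4) F)) :=
  ⟨(γ.1.1 * GeneralLinearGroup.det γ.1.2, invT γ.1.2), by
    have := (mem_Gam' γ.1).1 γ.2
    rw [mem_Gam', det_invT]
    show (γ.1.1 * GeneralLinearGroup.det γ.1.2) ^ 2 * (GeneralLinearGroup.det γ.1.2)⁻¹ = 1
    rw [← this]
    rw [mul_pow, pow_two (GeneralLinearGroup.det γ.1.2), mul_assoc, mul_assoc, mul_inv_cancel,
      mul_one]⟩

theorem tau_Rho (γ : (Gam : Subgroup (Fˣ × GL (Fin 4) F))) :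
    tau * Rho γ = Rho (sw γ) * tau := by
  apply Subtype.ext; apply Units.ext
  show lift T6 * Rho0 γ.1 = Rho0 (sw γ).1 * lift T6
  rw [Rho0_apply, Rho0_apply, ← lift_mul, ← lift_mul, Matrix.mul_smul,
    T6_L6 _ ((γ.1.2⁻¹ : GL (Fin 4) F) : Matrix (Fin 4) (Fin 4) F)
      (by rw [← Units.val_mul, mul_inv_cancel]; rfl), smul_smul, Matrix.smul_mul]
  rfl

theorem ss_ne (I : Fin 6) : (ss I : F) ≠ 0 := by
  fin_cases I <;> simp [ss]

theorem ss_sq (I : Fin 6) : (ss I : F) * ss I = 1 := by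
  fin_cases I <;> simp [ss]

theorem tau_not_mem : (tau : Cfsg.isometryGroup F (Cfsg.quadFormPlus 3 F)) ∉
    (Rho : (Gam : Subgroup (Fˣ × GL (Fin 4) F)) →* _).range := by
  rintro ⟨γ, hγ⟩
  have h1 : Rho0 γ.1 = lift T6 := by
    rw [← Rho_val, hγ]; rfl
  rw [Rho0_apply] at h1
  have h2 := lift_inj h1
  obtain ⟨g, hg⟩ : ∃ g, g = (γ.1.2 : Matrix (Fin 4) (Fin 4) F) := ⟨_, rfl⟩
  obtain ⟨c, hc⟩ : ∃ c, c = (γ.1.1 : F) := ⟨_, rfl⟩
  have hc0 : c ≠ 0 := by rw [hc]; exact γ.1.1.ne_zero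
  rw [← hg, ← hc] at h2
  have hm : ∀ I J, c * (ss I * ss J * minor g I J) = (T6 : Matrix (Fin 6) (Fin 6) F) I J :=
    fun I J => congrFun (congrFun h2 I) J
  have hz : ∀ I J, (T6 : Matrix (Fin 6) (Fin 6) F) I J = 0 → minor g I J = 0 := by
    intro I J h0
    have := hm I J
    rw [h0] at this
    have h3 := (mul_eq_zero.1 this).resolve_left hc0
    exact (mul_eq_zero.1 h3).resolve_left (mul_ne_zero (ss_ne I) (ss_ne J))
  have hn : ∀ I J, (T6 : Matrix (Fin 6) (Fin 6) F) I J = 1 → minor g I J ≠ 0 := by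
    intro I J h0 hmin
    have := hm I J
    rw [h0, hmin] at this
    simp at this
  have a14 : g 0 1 * g 2 3 - g 0 3 * g 2 1 ≠ 0 := hn 1 4 (by simp [T6])
  have a15 : g 0 1 * g 2 2 - g 0 2 * g 2 1 = 0 := hz 1 5 (by simp [T6])
  have a13 : g 0 2 * g 2 3 - g 0 3 * g 2 2 = 0 := hz 1 3 (by simp [T6])
  have a25 : g 0 1 * g 3 2 - g 0 2 * g 3 1 ≠ 0 := hn 2 5 (by simp [T6])
  have a24 : g 0 1 * g 3 3 - g 0 3 * g 3 1 = 0 := hz 2 4 (by simp [T6])
  have a23 : g 0 2 * g 3 3 - g 0 3 * g 3 2 = 0 := hz 2 3 (by simp [T6])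
  have a03 : g 0 2 * g 1 3 - g 0 3 * g 1 2 ≠ 0 := hn 0 3 (by simp [T6])
  have z02 : g 0 2 = 0 := (col_zero a14 rfl a15 (by linear_combination -a13)).1
  have z03 : g 0 3 = 0 := (col_zero a25 rfl a24 a23).1
  apply a03
  rw [z02, z03]; ring

theorem L6_scalar (u : F) : L6 (Matrix.diagonal fun _ : Fin 4 => u) = (u ^ 2) • 1 := by
  ext I J
  simp only [L6, minor, Matrix.of_apply, Matrix.diagonal_apply, Matrix.smul_apply, Matrix.one_apply]
  fin_cases I <;> fin_cases J <;> simp [ss, pow_two]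

/-- the kernel of `ρ` -/
noncomputable def iota : Fˣ →* (Gam : Subgroup (Fˣ × GL (Fin 4) F)) where
  toFun u := ⟨((u⁻¹) ^ 2, GeneralLinearGroup.scalar (Fin 4) u), by
    rw [mem_Gam]
    have : (u : F) * ((u⁻¹ : Fˣ) : F) = 1 := by simp
    simp only [GeneralLinearGroup.coe_scalar, Matrix.scalar_apply, Matrix.det_diagonal,
      Finset.prod_const, Finset.card_univ, Fintype.card_fin, Units.val_pow_eq_pow_val]
    calc (((u⁻¹ : Fˣ) : F) ^ 2) ^ 2 * (u : F) ^ 4 = ((u : F) * ((u⁻¹ : Fˣ) : F)) ^ 4 := by ring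
      _ = 1 := by rw [this, one_pow]⟩
  map_one' := by
    apply Subtype.ext
    simp
  map_mul' u v := by
    apply Subtype.ext
    simp [mul_pow, mul_comm]

theorem iota_val (u : Fˣ) : (iota u).1 = ((u⁻¹) ^ 2, GeneralLinearGroup.scalar (Fin 4) u) := rfl

theorem iota_injective :
    Function.Injective (iota : Fˣ →* (Gam : Subgroup (Fˣ × GL (Fin 4) F))) := by
  intro u v h
  have h1 : GeneralLinearGroup.scalar (Fin 4) u = GeneralLinearGroup.scalar (Fin 4) v :=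
    congrArg (fun γ : (Gam : Subgroup (Fˣ × GL (Fin 4) F)) => γ.1.2) h
  have h2 := congrArg (fun g : GL (Fin 4) F => g 0 0) h1
  apply Units.ext
  simpa using h2

theorem Rho_ker : (Rho : (Gam : Subgroup (Fˣ × GL (Fin 4) F)) →* _).ker = iota.range := by
  ext γ
  rw [MonoidHom.mem_ker]
  constructor
  · intro h
    have h1 : Rho0 γ.1 = 1 := by
      rw [← Rho_val, h]; rfl
    rw [Rho0_apply, ← lift_one] at h1
    have h2 := lift_inj h1
    obtain ⟨g, hg⟩ : ∃ g, g = (γ.1.2 : Matrix (Fin 4) (Fin 4) F) := ⟨_, rfl⟩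
    obtain ⟨c, hc⟩ : ∃ c, c = (γ.1.1 : F) := ⟨_, rfl⟩
    have hc0 : c ≠ 0 := by rw [hc]; exact γ.1.1.ne_zero
    rw [← hg, ← hc] at h2
    have hm : ∀ I J, c * (ss I * ss J * minor g I J) = (1 : Matrix (Fin 6) (Fin 6) F) I J :=
      fun I J => congrFun (congrFun h2 I) J
    have hz : ∀ I J, I ≠ J → minor g I J = 0 := by
      intro I J h0
      have := hm I J
      rw [Matrix.one_apply_ne h0] at this
      have h3 := (mul_eq_zero.1 this).resolve_left hc0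
      exact (mul_eq_zero.1 h3).resolve_left (mul_ne_zero (ss_ne I) (ss_ne J))
    have hd : ∀ I, minor g I I = c⁻¹ := by
      intro I
      have := hm I I
      rw [Matrix.one_apply_eq, ss_sq, one_mul] at this
      exact eq_inv_of_mul_eq_one_right this
    have hci : c⁻¹ ≠ 0 := inv_ne_zero hc0
    have D0 : g 0 0 * g 1 1 - g 0 1 * g 1 0 = c⁻¹ := hd 0
    have D1 : g 0 0 * g 2 2 - g 0 2 * g 2 0 = c⁻¹ := hd 1
    have D2 : g 0 0 * g 3 3 - g 0 3 * g 3 0 = c⁻¹ := hd 2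
    have D3 : g 2 2 * g 3 3 - g 2 3 * g 3 2 = c⁻¹ := hd 3
    have D4 : g 1 1 * g 3 3 - g 1 3 * g 3 1 = c⁻¹ := hd 4
    have D5 : g 1 1 * g 2 2 - g 1 2 * g 2 1 = c⁻¹ := hd 5
    have a01 : g 0 0 * g 1 2 - g 0 2 * g 1 0 = 0 := hz 0 1 (by decide)
    have a05 : g 0 1 * g 1 2 - g 0 2 * g 1 1 = 0 := hz 0 5 (by decide)
    have a02 : g 0 0 * g 1 3 - g 0 3 * g 1 0 = 0 := hz 0 2 (by decide)
    have a04 : g 0 1 * g 1 3 - g 0 3 * g 1 1 = 0 := hz 0 4 (by decide)
    have a31 : g 2 0 * g 3 2 - g 2 2 * g 3 0 = 0 := hz 3 1 (by decide)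
    have a32 : g 2 0 * g 3 3 - g 2 3 * g 3 0 = 0 := hz 3 2 (by decide)
    have a35 : g 2 1 * g 3 2 - g 2 2 * g 3 1 = 0 := hz 3 5 (by decide)
    have a34 : g 2 1 * g 3 3 - g 2 3 * g 3 1 = 0 := hz 3 4 (by decide)
    have a10 : g 0 0 * g 2 1 - g 0 1 * g 2 0 = 0 := hz 1 0 (by decide)
    have a15 : g 0 1 * g 2 2 - g 0 2 * g 2 1 = 0 := hz 1 5 (by decide)
    have a12 : g 0 0 * g 2 3 - g 0 3 * g 2 0 = 0 := hz 1 2 (by decide)
    have a13 : g 0 2 * g 2 3 - g 0 3 * g 2 2 = 0 := hz 1 3 (by decide)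
    have a40 : g 1 0 * g 3 1 - g 1 1 * g 3 0 = 0 := hz 4 0 (by decide)
    have a42 : g 1 0 * g 3 3 - g 1 3 * g 3 0 = 0 := hz 4 2 (by decide)
    have a45 : g 1 1 * g 3 2 - g 1 2 * g 3 1 = 0 := hz 4 5 (by decide)
    have a43 : g 1 2 * g 3 3 - g 1 3 * g 3 2 = 0 := hz 4 3 (by decide)
    obtain ⟨z02, z12⟩ := col_zero hci D0 a01 a05
    obtain ⟨z03, z13⟩ := col_zero hci D0 a02 a04
    obtain ⟨z20, z30⟩ := col_zero hci D3 (w0 := g 2 0) (w1 := g 3 0)
      (by linear_combination -a31) (by linear_combination -a32)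
    obtain ⟨z21, z31⟩ := col_zero hci D3 (w0 := g 2 1) (w1 := g 3 1)
      (by linear_combination -a35) (by linear_combination -a34)
    obtain ⟨z01, _⟩ := col_zero hci D1 a10 (by linear_combination -a15)
    obtain ⟨_, z23⟩ := col_zero hci D1 a12 a13
    obtain ⟨z10, _⟩ := col_zero hci D4 (w0 := g 1 0) (w1 := g 3 0)
      (by linear_combination -a40) (by linear_combination -a42)
    obtain ⟨_, z32⟩ := col_zero hci D4 a45 (by linear_combination -a43)
    rw [z01] at D0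
    rw [z02] at D1
    rw [z03] at D2
    rw [z12] at D5
    have h00 : g 0 0 ≠ 0 := by
      intro h0; rw [h0] at D0; apply hci; rw [← D0]; ring
    have h11 : g 1 1 ≠ 0 := by
      intro h0; rw [h0] at D0; apply hci; rw [← D0]; ring
    have e22 : g 2 2 = g 1 1 := by
      have : g 0 0 * (g 2 2 - g 1 1) = 0 := by linear_combination D1 - D0
      have := (mul_eq_zero.1 this).resolve_left h00
      linear_combination this
    have e33 : g 3 3 = g 1 1 := by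
      have : g 0 0 * (g 3 3 - g 1 1) = 0 := by linear_combination D2 - D0
      have := (mul_eq_zero.1 this).resolve_left h00
      linear_combination this
    have e11 : g 1 1 = g 0 0 := by
      have : g 1 1 * (g 2 2 - g 0 0) = 0 := by linear_combination D5 - D0
      have := (mul_eq_zero.1 this).resolve_left h11
      rw [e22] at this
      linear_combination this
    refine ⟨Units.mk0 _ h00, ?_⟩
    apply Subtype.ext
    rw [iota_val]
    apply Prod.ext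
    · apply Units.ext
      show (((Units.mk0 _ h00)⁻¹ : Fˣ) ^ 2 : Fˣ).val = (γ.1.1 : F)
      rw [← hc]
      rw [e11] at D0
      simp only [Units.val_pow_eq_pow_val, Units.val_inv_eq_inv_val, Units.val_mk0]
      have : c = (g 0 0 * g 0 0)⁻¹ := by
        have h5 : g 0 0 * g 0 0 = c⁻¹ := by linear_combination D0
        rw [h5, inv_inv]
      rw [this, inv_pow, pow_two]
    · apply Units.ext
      show ((GeneralLinearGroup.scalar (Fin 4) (Units.mk0 _ h00) : GL (Fin 4) F) :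
        Matrix (Fin 4) (Fin 4) F) = (γ.1.2 : Matrix (Fin 4) (Fin 4) F)
      rw [← hg]
      have hzero : ∀ i j : Fin 4, i ≠ j → g i j = 0 := by
        intro i j hij
        fin_cases i <;> fin_cases j <;>
          first | exact absurd rfl hij | exact z01 | exact z02 | exact z03 | exact z10 | exact z12 | exact z13 | exact z20 | exact z21 | exact z23 | exact z30 | exact z31 | exact z32
      have hdiag : ∀ i : Fin 4, g i i = g 0 0 := by
        intro i
        fin_cases i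
        exacts [rfl, e11, e22.trans e11, e33.trans e11]
      ext i j
      rw [GeneralLinearGroup.coe_scalar, Matrix.scalar_apply, Matrix.diagonal_apply]
      by_cases hij : i = j
      · subst hij
        rw [if_pos rfl]
        exact (hdiag i).symm
      · rw [if_neg hij]
        exact (hzero i j hij).symm
  · rintro ⟨u, rfl⟩
    apply Subtype.ext; apply Units.ext
    show Rho0 _ = 1
    rw [Rho0_apply, ← lift_one, iota_val]
    congr 1
    simp only [GeneralLinearGroup.coe_scalar, Matrix.scalar_apply]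
    rw [L6_scalar, smul_smul]
    have : (u : F) * ((u⁻¹ : Fˣ) : F) = 1 := by simp
    have h2 : (((u⁻¹) ^ 2 : Fˣ) : F) * (u : F) ^ 2 = 1 := by
      rw [Units.val_pow_eq_pow_val]
      calc ((u⁻¹ : Fˣ) : F) ^ 2 * (u : F) ^ 2 = ((u : F) * ((u⁻¹ : Fˣ) : F)) ^ 2 := by ring
        _ = 1 := by rw [this, one_pow]
    rw [h2, one_smul]

theorem card_GL4 [Fintype F] : Nat.card (GL (Fin 4) F) =
    (Fintype.card F - 1) * (Fintype.card F ^ 6 * (Fintype.card F ^ 3 - 1) *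
      ((Fintype.card F ^ 2 - 1) * (Fintype.card F ^ 4 - 1))) := by
  rw [Matrix.card_GL_field, Fin.prod_univ_four]
  obtain ⟨q, hq⟩ : ∃ q, q = Fintype.card F := ⟨_, rfl⟩
  rw [← hq]
  have e0 : q ^ 4 - q ^ ((0 : Fin 4) : ℕ) = q ^ 4 - 1 := by simp
  have e1 : q ^ 4 - q ^ ((1 : Fin 4) : ℕ) = q * (q ^ 3 - 1) := by
    rw [Nat.mul_sub]; simp; ring_nf
  have e2 : q ^ 4 - q ^ ((2 : Fin 4) : ℕ) = q ^ 2 * (q ^ 2 - 1) := by
    rw [Nat.mul_sub]
    show q ^ 4 - q ^ 2 = _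
    ring_nf
  have e3 : q ^ 4 - q ^ ((3 : Fin 4) : ℕ) = q ^ 3 * (q - 1) := by
    rw [Nat.mul_sub]
    show q ^ 4 - q ^ 3 = _
    ring_nf
  rw [e0, e1, e2, e3]
  ring

theorem card_range [Fintype F] :
    Nat.card (Rho : (Gam : Subgroup (Fˣ × GL (Fin 4) F)) →* _).range =
      Fintype.card F ^ 6 * (Fintype.card F ^ 3 - 1) *
      ((Fintype.card F ^ 2 - 1) * (Fintype.card F ^ 4 - 1)) := by
  classical
  have hu : Nat.card Fˣ = Fintype.card F - 1 := by
    rw [Nat.card_eq_fintype_card, Fintype.card_units]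
  have h1 := (mu : Fˣ × GL (Fin 4) F →* Fˣ).ker.card_mul_index
  have hsurj : Function.Surjective (mu : Fˣ × GL (Fin 4) F →* Fˣ) := by
    intro u
    obtain ⟨g, hg⟩ := Cfsg.Agent.Lib.Helper12.det_surjective (F := F) 4 (by norm_num) u
    exact ⟨(1, g), by simp [mu, hg]⟩
  rw [Subgroup.index_ker, MonoidHom.range_eq_top.mpr hsurj, Subgroup.card_top, Nat.card_prod,
    card_GL4, hu] at h1
  have h2 := (Rho : (Gam : Subgroup (Fˣ × GL (Fin 4) F)) →* _).ker.card_mul_index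
  rw [Subgroup.index_ker, Rho_ker, Nat.card_congr (MonoidHom.ofInjective iota_injective).toEquiv.symm,
    hu] at h2
  have h3 : Nat.card (Gam : Subgroup (Fˣ × GL (Fin 4) F)) =
      Nat.card (mu : Fˣ × GL (Fin 4) F →* Fˣ).ker := rfl
  rw [h3] at h2
  rw [← h2] at h1
  have hq : 2 ≤ Fintype.card F := Fintype.one_lt_card
  have hpos : 0 < (Fintype.card F - 1) * (Fintype.card F - 1) := Nat.mul_pos (by omega) (by omega)
  apply Nat.eq_of_mul_eq_mul_left hpos
  calc _ = (Fintype.card F - 1) * Nat.card (Rho : (Gam : Subgroup (Fˣ × GL (Fin 4) F)) →* _).range *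
        (Fintype.card F - 1) := by ring
    _ = _ := by rw [h1]; ring

theorem index_range [Fintype F] :
    (Rho : (Gam : Subgroup (Fˣ × GL (Fin 4) F)) →* _).range.index = 2 := by
  have h1 := (Rho : (Gam : Subgroup (Fˣ × GL (Fin 4) F)) →* _).range.card_mul_index
  rw [card_range, Cfsg.Agent.S0287.result rfl 3 (by norm_num)] at h1
  simp only [Nat.add_one_sub_one, Finset.prod_range_succ, Finset.prod_range_zero] at h1
  norm_num at h1
  have hq : 2 ≤ Fintype.card F := Fintype.one_lt_card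
  have p1 : 0 < Fintype.card F ^ 3 - 1 := by
    have : 2 ^ 3 ≤ Fintype.card F ^ 3 := Nat.pow_le_pow_left hq 3
    omega
  have p2 : 0 < Fintype.card F ^ 2 - 1 := by
    have : 2 ^ 2 ≤ Fintype.card F ^ 2 := Nat.pow_le_pow_left hq 2
    omega
  have p3 : 0 < Fintype.card F ^ 4 - 1 := by
    have : 2 ^ 4 ≤ Fintype.card F ^ 4 := Nat.pow_le_pow_left hq 4
    omega
  have p0 : 0 < Fintype.card F ^ 6 := by positivity
  apply Nat.eq_of_mul_eq_mul_left (Nat.mul_pos (Nat.mul_pos p0 p1) (Nat.mul_pos p2 p3))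
  rw [h1]
  ring

theorem exists_pm [Fintype F] (x : Cfsg.isometryGroup F (Cfsg.quadFormPlus 3 F)) :
    ∃ γ : (Gam : Subgroup (Fˣ × GL (Fin 4) F)), x = Rho γ ∨ x = Rho γ * tau := by
  by_cases hx : x ∈ (Rho : (Gam : Subgroup (Fˣ × GL (Fin 4) F)) →* _).range
  · obtain ⟨g, hg⟩ := hx
    exact ⟨g, Or.inl hg.symm⟩
  · have := (Subgroup.mul_mem_iff_of_index_two index_range (a := x) (b := tau)).2
      ⟨fun h => absurd h hx, fun h => absurd h tau_not_mem⟩
    obtain ⟨g, hg⟩ := this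
    refine ⟨g, Or.inr ?_⟩
    rw [hg, mul_assoc, tau_mul_tau, mul_one]

end Cfsg.Agent.Lib.Helper29.O6
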