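import Mathlib
import Cfsg.Agent.Lib.Helper29.O6b
import Cfsg.Agent.Lib.Helper29.O4

/-! `Sp₄(F) → GO₅(F)` through the exterior square. -/

set_option autoImplicit false

namespace Cfsg.Agent.Lib.Helper29.O5

open Matrix Cfsg.Agent.Lib.Helper29.O6

variable {F : Type*} [Field F]

abbrev J5 := Unit ⊕ (Fin 2 ⊕ Fin 2)

/-- the obvious bijection -/
def eJ5 : J5 ≃ Fin 5 where
  toFun := Sum.elim (fun _ => 0) (Sum.elim ![1, 2] ![3, 4])
  invFun := ![Sum.inl (), Sum.inr (Sum.inl 0), Sum.inr (Sum.inl 1), Sum.inr (Sum.inr 0),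
    Sum.inr (Sum.inr 1)]
  left_inv := by
    rintro (i | i | i)
    · rfl
    · fin_cases i <;> rfl
    · fin_cases i <;> rfl
  right_inv := by
    intro i; fin_cases i <;> rfl

def lift5 (A : Matrix (Fin 5) (Fin 5) F) : Matrix J5 J5 F := A.submatrix eJ5 eJ5

theorem lift5_mul (A B : Matrix (Fin 5) (Fin 5) F) : lift5 (A * B) = lift5 A * lift5 B :=
  (Matrix.submatrix_mul_equiv A B eJ5 eJ5 eJ5).symm

theorem lift5_one : lift5 (1 : Matrix (Fin 5) (Fin 5) F) = 1 := Matrix.submatrix_one_equiv eJ5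

theorem lift5_inj {A B : Matrix (Fin 5) (Fin 5) F} (h : lift5 A = lift5 B) : A = B := by
  ext i j
  have := congrFun (congrFun h (eJ5.symm i)) (eJ5.symm j)
  simpa [lift5] using this

def q5 (w : Fin 5 → F) : F := w 0 ^ 2 + (w 1 * w 3 + w 2 * w 4)

theorem Q5_eq (v : J5 → F) : Cfsg.quadFormOdd 2 F v = q5 (v ∘ eJ5.symm) := by
  simp [Cfsg.quadFormOdd, q5, eJ5, Fin.sum_univ_two]

theorem Q5_lift (A : Matrix (Fin 5) (Fin 5) F) (v : J5 → F) :
    Cfsg.quadFormOdd 2 F (lift5 A *ᵥ v) = q5 (A *ᵥ (v ∘ eJ5.symm)) := by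
  rw [Q5_eq, lift5, Matrix.submatrix_mulVec_equiv]
  congr 1
  ext i
  simp

variable (F) in
def E : Matrix (Fin 6) (Fin 5) F :=
  !![0, 1, 0, 0, 0; 1, 0, 0, 0, 0; 0, 0, 1, 0, 0; 0, 0, 0, 1, 0; 1, 0, 0, 0, 0; 0, 0, 0, 0, 1]

variable (F) in
def P : Matrix (Fin 5) (Fin 6) F :=
  !![0, 1, 0, 0, 0, 0; 1, 0, 0, 0, 0, 0; 0, 0, 1, 0, 0, 0; 0, 0, 0, 1, 0, 0; 0, 0, 0, 0, 0, 1]

theorem P_mul_E : P F * E F = 1 := by
  ext i j
  fin_cases i <;> fin_cases j <;> simp [P, E, Matrix.mul_apply, Fin.sum_univ_six]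

theorem q6_E (w : Fin 5 → F) : q6 (E F *ᵥ w) = q5 w := by
  simp [q6, q5, E, Matrix.mulVec, dotProduct, Fin.sum_univ_five]
  ring

theorem EP (X : Matrix (Fin 6) (Fin 5) F) (h : ∀ c, X 4 c = X 1 c) : E F * (P F * X) = X := by
  ext I c
  fin_cases I <;> simp [E, P, Matrix.mul_apply, Fin.sum_univ_five, Fin.sum_univ_six, h, Matrix.vecMul, dotProduct]

def om : Fin 6 → F := ![0, 1, 0, 0, 1, 0]

/-- the two symplectic conditions in terms of minors -/
def RowC (g : Matrix (Fin 4) (Fin 4) F) : Prop := ∀ J, minor g 1 J + minor g 4 J = om J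
def ColC (g : Matrix (Fin 4) (Fin 4) F) : Prop := ∀ I, minor g I 1 + minor g I 4 = om I

theorem rows_eq {g : Matrix (Fin 4) (Fin 4) F} (h : RowC g) (c : Fin 5) :
    (L6 g * E F) 4 c = (L6 g * E F) 1 c := by
  have h0 := h 0
  have h1 := h 1
  have h2 := h 2
  have h3 := h 3
  have h4 := h 4
  have h5 := h 5
  simp only [om] at h0 h1 h2 h3 h4 h5
  fin_cases c <;> simp [L6, ss, E, Matrix.mul_apply, Fin.sum_univ_six]
  · simp at h1 h4; linear_combination h4 - h1
  · simp at h0; linear_combination -h0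
  · simp at h2; linear_combination -h2
  · simp at h3; linear_combination -h3
  · simp at h5; linear_combination -h5

theorem pf (g : Matrix (Fin 4) (Fin 4) F) :
    (minor g 1 0 + minor g 4 0) * (minor g 1 3 + minor g 4 3)
    - (minor g 1 1 + minor g 4 1) * (minor g 1 4 + minor g 4 4)
    + (minor g 1 2 + minor g 4 2) * (minor g 1 5 + minor g 4 5) = -g.det := by
  rw [det4]
  simp [minor]
  ring

theorem det_of_RowC {g : Matrix (Fin 4) (Fin 4) F} (h : RowC g) : g.det = 1 := by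
  have := pf g
  rw [h 0, h 1, h 2, h 3, h 4, h 5] at this
  simp [om] at this
  exact this.symm

def M5 (g : Matrix (Fin 4) (Fin 4) F) : Matrix (Fin 5) (Fin 5) F := P F * (L6 g * E F)

theorem E_M5 {g : Matrix (Fin 4) (Fin 4) F} (h : RowC g) : E F * M5 g = L6 g * E F :=
  EP _ (rows_eq h)

theorem M5_mul (g : Matrix (Fin 4) (Fin 4) F) {h : Matrix (Fin 4) (Fin 4) F} (hh : RowC h) :
    M5 (g * h) = M5 g * M5 h := by
  have : M5 g * M5 h = P F * (L6 g * (E F * M5 h)) := by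
    simp only [M5, Matrix.mul_assoc]
  rw [this, E_M5 hh, M5, L6_mul]
  simp only [Matrix.mul_assoc]

theorem M5_one : M5 (1 : Matrix (Fin 4) (Fin 4) F) = 1 := by
  rw [M5, L6_one, Matrix.one_mul, P_mul_E]

theorem q5_M5 {g : Matrix (Fin 4) (Fin 4) F} (h : RowC g) (w : Fin 5 → F) :
    q5 (M5 g *ᵥ w) = q5 w := by
  rw [← q6_E, Matrix.mulVec_mulVec, E_M5 h, ← Matrix.mulVec_mulVec, q6_L6, det_of_RowC h, one_mul,
    q6_E]

theorem L6_eq_one (h2 : (2 : F) ≠ 0) {g : Matrix (Fin 4) (Fin 4) F} (hr : RowC g) (hc : ColC g)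
    (h : M5 g = 1) : L6 g = 1 := by
  have h1 : L6 g * E F = E F := by rw [← E_M5 hr, h, Matrix.mul_one]
  have hE : ∀ I c, (L6 g * E F) I c = (E F) I c := fun I c => by rw [h1]
  have k0 : ∀ I, L6 g I 1 + L6 g I 4 = (E F) I 0 := fun I => by
    rw [← hE]; simp [E, Matrix.mul_apply, Fin.sum_univ_six]
  have k1 : ∀ I, L6 g I 0 = (E F) I 1 := fun I => by
    rw [← hE]; simp [E, Matrix.mul_apply, Fin.sum_univ_six]
  have k2 : ∀ I, L6 g I 2 = (E F) I 2 := fun I => by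
    rw [← hE]; simp [E, Matrix.mul_apply, Fin.sum_univ_six]
  have k3 : ∀ I, L6 g I 3 = (E F) I 3 := fun I => by
    rw [← hE]; simp [E, Matrix.mul_apply, Fin.sum_univ_six]
  have k4 : ∀ I, L6 g I 5 = (E F) I 4 := fun I => by
    rw [← hE]; simp [E, Matrix.mul_apply, Fin.sum_univ_six]
  have kc : ∀ I, L6 g I 4 - L6 g I 1 = -(ss I * om I) := fun I => by
    have := hc I
    simp only [L6, Matrix.of_apply]
    have s1 : (ss 1 : F) = 1 := by simp [ss]
    have s4 : (ss 4 : F) = -1 := by simp [ss]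
    rw [s1, s4, ← this]; ring
  have c4 : ∀ I, L6 g I 4 = (1 : Matrix (Fin 6) (Fin 6) F) I 4 := by
    intro I
    have e1 := k0 I
    have e2 := kc I
    have key : 2 * L6 g I 4 = (E F) I 0 - ss I * om I := by linear_combination e1 + e2
    have val : (E F) I 0 - ss I * om I = 2 * (1 : Matrix (Fin 6) (Fin 6) F) I 4 := by
      simp only [Matrix.one_apply]
      fin_cases I <;> simp [E, ss, om] <;> ring
    exact mul_left_cancel₀ h2 (key.trans val)
  have c1 : ∀ I, L6 g I 1 = (1 : Matrix (Fin 6) (Fin 6) F) I 1 := by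
    intro I
    have e1 := k0 I
    have e2 := kc I
    have key : 2 * L6 g I 1 = (E F) I 0 + ss I * om I := by linear_combination e1 - e2
    have val : (E F) I 0 + ss I * om I = 2 * (1 : Matrix (Fin 6) (Fin 6) F) I 1 := by
      simp only [Matrix.one_apply]
      fin_cases I <;> simp [E, ss, om] <;> ring
    exact mul_left_cancel₀ h2 (key.trans val)
  ext I J
  fin_cases J
  · show L6 g I 0 = _
    rw [k1]; fin_cases I <;> simp [E]
  · exact c1 I
  · show L6 g I 2 = _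
    rw [k2]; fin_cases I <;> simp [E]
  · show L6 g I 3 = _
    rw [k3]; fin_cases I <;> simp [E]
  · exact c4 I
  · show L6 g I 5 = _
    rw [k4]; fin_cases I <;> simp [E]

end Cfsg.Agent.Lib.Helper29.O5
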