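import Mathlib
import Cfsg.Agent.Lib.Helper29.O5

/-! `Sp₄(F) → GO₅(F)`: gluing with Mathlib's symplectic group. -/

set_option autoImplicit false

namespace Cfsg.Agent.Lib.Helper29.O5

open Matrix Cfsg.Agent.Lib.Helper29.O6

variable {F : Type*} [Field F]

abbrev Sp4 (F : Type*) [Field F] := ↥(Matrix.symplecticGroup (Fin 2) F)

/-- reindexing -/
def re (A : Matrix (Fin 2 ⊕ Fin 2) (Fin 2 ⊕ Fin 2) F) : Matrix (Fin 4) (Fin 4) F :=
  A.submatrix O4.eJ4.symm O4.eJ4.symm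

theorem re_mul (A B : Matrix (Fin 2 ⊕ Fin 2) (Fin 2 ⊕ Fin 2) F) : re (A * B) = re A * re B :=
  (Matrix.submatrix_mul_equiv A B _ _ _).symm

theorem re_one : re (1 : Matrix (Fin 2 ⊕ Fin 2) (Fin 2 ⊕ Fin 2) F) = 1 :=
  Matrix.submatrix_one_equiv _

theorem re_transpose (A : Matrix (Fin 2 ⊕ Fin 2) (Fin 2 ⊕ Fin 2) F) : re Aᵀ = (re A)ᵀ := rfl

theorem re_inj {A B : Matrix (Fin 2 ⊕ Fin 2) (Fin 2 ⊕ Fin 2) F} (h : re A = re B) : A = B := by
  ext i j
  have := congrFun (congrFun h (O4.eJ4 i)) (O4.eJ4 j)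
  simpa [re] using this

variable (F) in
def JJ : Matrix (Fin 4) (Fin 4) F := !![0, 0, -1, 0; 0, 0, 0, -1; 1, 0, 0, 0; 0, 1, 0, 0]

theorem re_J : re (Matrix.J (Fin 2) F) = JJ F := by
  ext i j
  fin_cases i <;> fin_cases j <;> simp [re, JJ, Matrix.J, O4.eJ4]

theorem row_id (g : Matrix (Fin 4) (Fin 4) F) (J : Fin 6) :
    (gᵀ * JJ F * g) (rr J) (tt J) = -(minor g 1 J + minor g 4 J) := by
  simp [Matrix.mul_apply, Fin.sum_univ_four, JJ, minor]
  ring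

theorem col_id (g : Matrix (Fin 4) (Fin 4) F) (I : Fin 6) :
    (g * JJ F * gᵀ) (rr I) (tt I) = -(minor g I 1 + minor g I 4) := by
  simp [Matrix.mul_apply, Fin.sum_univ_four, JJ, minor]
  ring

theorem JJ_om (J : Fin 6) : (JJ F) (rr J) (tt J) = -om J := by
  fin_cases J <;> simp [JJ, om]

theorem RowC_re (A : Sp4 F) : RowC (re A.1) := by
  intro J
  have h := (SymplecticGroup.mem_iff').1 A.2
  have h' : (re A.1)ᵀ * JJ F * re A.1 = JJ F := by
    rw [← re_J, ← re_transpose, ← re_mul, ← re_mul, h]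
  have := congrFun (congrFun h' (rr J)) (tt J)
  rw [row_id, JJ_om] at this
  exact neg_injective this

theorem ColC_re (A : Sp4 F) : ColC (re A.1) := by
  intro J
  have h := (SymplecticGroup.mem_iff).1 A.2
  have h' : re A.1 * JJ F * (re A.1)ᵀ = JJ F := by
    rw [← re_J, ← re_transpose, ← re_mul, ← re_mul, h]
  have := congrFun (congrFun h' (rr J)) (tt J)
  rw [col_id, JJ_om] at this
  exact neg_injective this

noncomputable def Psi0 : Sp4 F →* Matrix J5 J5 F where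
  toFun A := lift5 (M5 (re A.1))
  map_one' := by
    show lift5 (M5 (re 1)) = 1
    rw [re_one, M5_one, lift5_one]
  map_mul' A B := by
    show lift5 (M5 (re (A.1 * B.1))) = _
    rw [re_mul, M5_mul _ (RowC_re B), lift5_mul]

theorem Psi0_apply (A : Sp4 F) : Psi0 A = lift5 (M5 (re A.1)) := rfl

noncomputable def PsiU : Sp4 F →* GL J5 F := Psi0.toHomUnits

theorem Psi_mem (A : Sp4 F) : PsiU A ∈ Cfsg.isometryGroup F (Cfsg.quadFormOdd 2 F) := by
  intro v _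
  show Cfsg.quadFormOdd 2 F (Psi0 A *ᵥ v) = Cfsg.quadFormOdd 2 F v
  rw [Psi0_apply, Q5_lift, Q5_eq, q5_M5 (RowC_re A)]

noncomputable def Psi : Sp4 F →* Cfsg.isometryGroup F (Cfsg.quadFormOdd 2 F) where
  toFun A := ⟨PsiU A, Psi_mem A⟩
  map_one' := Subtype.ext (map_one PsiU)
  map_mul' A B := Subtype.ext (map_mul PsiU A B)

theorem Psi_val (A : Sp4 F) : ((Psi A : GL J5 F) : Matrix J5 J5 F) = Psi0 A := rfl

theorem Psi_ker_le (h2 : (2 : F) ≠ 0) {A : Sp4 F} (h : Psi A = 1) :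
    A ∈ Subgroup.center (Sp4 F) := by
  have h1 : Psi0 A = 1 := by
    rw [← Psi_val, h]; rfl
  rw [Psi0_apply, ← lift5_one] at h1
  have hL := L6_eq_one h2 (RowC_re A) (ColC_re A) (lift5_inj h1)
  have hdet : (re A.1).det = 1 := det_of_RowC (RowC_re A)
  obtain ⟨gU, hgU⟩ : ∃ gU : GL (Fin 4) F, (gU : Matrix (Fin 4) (Fin 4) F) = re A.1 :=
    ⟨Matrix.GeneralLinearGroup.mkOfDetNeZero (re A.1) (by rw [hdet]; exact one_ne_zero), rfl⟩
  have hmem : ((1 : Fˣ), gU) ∈ (Gam : Subgroup (Fˣ × GL (Fin 4) F)) := by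
    rw [mem_Gam]
    show ((1 : Fˣ) : F) ^ 2 * (gU : Matrix (Fin 4) (Fin 4) F).det = 1
    rw [hgU, hdet]; simp
  have hk : (⟨((1 : Fˣ), gU), hmem⟩ : (Gam : Subgroup (Fˣ × GL (Fin 4) F))) ∈
      (Rho : (Gam : Subgroup (Fˣ × GL (Fin 4) F)) →* _).ker := by
    rw [MonoidHom.mem_ker]
    apply Subtype.ext; apply Units.ext
    show Rho0 ((1 : Fˣ), gU) = 1
    rw [Rho0_apply]
    show O6.lift ((((1 : Fˣ) : F)) • L6 (gU : Matrix (Fin 4) (Fin 4) F)) = 1
    rw [hgU, hL, Units.val_one, one_smul, O6.lift_one]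
  rw [Rho_ker] at hk
  obtain ⟨u, hu⟩ := hk
  have hs : GeneralLinearGroup.scalar (Fin 4) u = gU :=
    congrArg (fun γ : (Gam : Subgroup (Fˣ × GL (Fin 4) F)) => γ.1.2) hu
  have hs' : re A.1 = Matrix.scalar (Fin 4) (u : F) := by
    rw [← hgU, ← hs]; rfl
  rw [Subgroup.mem_center_iff]
  intro B
  apply Subtype.ext
  apply re_inj
  show re (B.1 * A.1) = re (A.1 * B.1)
  rw [re_mul, re_mul, hs']
  exact (Matrix.scalar_comm _ (fun _ => Commute.all _ _) _).symm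

end Cfsg.Agent.Lib.Helper29.O5
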