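import Mathlib

set_option autoImplicit false

namespace Cfsg.Agent.Lib.Helper29.PermReg

open scoped Pointwise

variable {G X : Type*} [Group G] [MulAction G X]

theorem reg_inj (N : Subgroup G) {x : X} (hreg : MulAction.stabilizer N x = ⊥) {a b : G}
    (ha : a ∈ N) (hb : b ∈ N) (h : a • x = b • x) : a = b := by
  have hmem : (⟨b⁻¹ * a, N.mul_mem (N.inv_mem hb) ha⟩ : N) ∈ MulAction.stabilizer N x := by
    rw [MulAction.mem_stabilizer_iff]
    change (b⁻¹ * a) • x = x
    rw [mul_smul, h, inv_smul_smul]
  rw [hreg, Subgroup.mem_bot] at hmem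
  have := congrArg Subtype.val hmem
  simp only [Subgroup.coe_one] at this
  exact (inv_mul_eq_one.mp this).symm

theorem exists_reg (N : Subgroup G) (htrans : MulAction.IsPretransitive N X) (x z : X) :
    ∃ n ∈ N, n • x = z := by
  obtain ⟨n, hn⟩ := htrans.exists_smul_eq x z
  exact ⟨n.1, n.2, hn⟩

/-- the bijection `N ≃ X` for a regular subgroup. -/
noncomputable def regEquiv (N : Subgroup G) (htrans : MulAction.IsPretransitive N X) (x : X)
    (hreg : MulAction.stabilizer N x = ⊥) : N ≃ X :=
  Equiv.ofBijective (fun n : N => (n : G) • x)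
    ⟨fun a b h => Subtype.ext (reg_inj N hreg a.2 b.2 h), fun z => by
      obtain ⟨n, hn, hz⟩ := exists_reg N htrans x z
      exact ⟨⟨n, hn⟩, hz⟩⟩

theorem regEquiv_apply (N : Subgroup G) (htrans : MulAction.IsPretransitive N X) (x : X)
    (hreg : MulAction.stabilizer N x = ⊥) (n : N) : regEquiv N htrans x hreg n = (n : G) • x := rfl

theorem card_reg (N : Subgroup G) (htrans : MulAction.IsPretransitive N X) (x : X)
    (hreg : MulAction.stabilizer N x = ⊥) : Nat.card N = Nat.card X :=
  Nat.card_congr (regEquiv N htrans x hreg)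

/-- An equivariant involution of a primitive action: each point is fixed or the set has two points. -/
theorem pair_block {H Y : Type*} [Group H] [MulAction H Y] [hprim : MulAction.IsPreprimitive H Y] (τ : Y → Y)
    (hτ : ∀ (h : H) (y : Y), h • τ y = τ (h • y)) (hττ : ∀ y, τ (τ y) = y) (y : Y) :
    τ y = y ∨ ∀ z, z = y ∨ z = τ y := by
  have hB : MulAction.IsBlock H ({y, τ y} : Set Y) := by
    rw [MulAction.isBlock_iff_smul_eq_of_nonempty]
    intro g hne
    have hg : g • ({y, τ y} : Set Y) = {g • y, τ (g • y)} := by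
      rw [Set.smul_set_insert, Set.smul_set_singleton, hτ]
    rw [hg] at hne ⊢
    obtain ⟨z, hz1, hz2⟩ := hne
    simp only [Set.mem_insert_iff, Set.mem_singleton_iff] at hz1 hz2
    rcases hz1 with h1 | h1 <;> rcases hz2 with h2 | h2
    · rw [← h1, h2]
    · rw [← h1, h2, hττ, Set.pair_comm]
    · have : g • y = τ y := by
        have h3 := congrArg τ (h1.symm.trans h2)
        rwa [hττ] at h3
      rw [this, hττ, Set.pair_comm]
    · have : g • y = y := by
        have h3 := congrArg τ (h1.symm.trans h2)
        rwa [hττ, hττ] at h3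
      rw [this]
  rcases hprim.isTrivialBlock_of_isBlock hB with h | h
  · left
    exact h (by simp) (by simp)
  · right
    intro z
    have : z ∈ ({y, τ y} : Set Y) := by rw [h]; exact Set.mem_univ z
    simpa using this

theorem comm_of_sq {N : Subgroup G} (h : ∀ n ∈ N, n ^ 2 = 1) : IsMulCommutative N := by
  refine ⟨⟨fun a b => ?_⟩⟩
  have h1 : a * a = 1 := by
    have := h a a.2
    ext; simpa [sq] using this
  have h2 : b * b = 1 := by
    have := h b b.2
    ext; simpa [sq] using this
  have h3 : (b * a) * (b * a) = 1 := by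
    have := h (b * a) (b * a).2
    ext; simpa [sq] using this
  have h4 : b * ((b * a) * (b * a)) * a = (b * b) * (a * b) * (a * a) := by group
  rw [h1, h2, h3] at h4
  simpa using h4.symm

end Cfsg.Agent.Lib.Helper29.PermReg
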