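import Mathlib
import Cfsg.Agent.Lib.Helper29.PrimeDeg2

/-! Prime degree, part 3: coordinates adapted to a given `p`-cycle, reflections coming from an
involution in the normaliser of a Sylow `p`-subgroup. -/

namespace Cfsg.Agent.Lib.Helper29.PrimeDeg

open Polynomial

/-- coordinates adapted to a given element of order `p`. -/
theorem shift_of_order {α : Type*} [Fintype α] {p : ℕ} [Fact p.Prime]
    (hα : Fintype.card α = p) (σ : Equiv.Perm α) (hc' : orderOf σ = p)
    (K : Type*) [Field K] [CharP K p] : ∃ S : Shift α K p, S.c = σ ∧ S.s = 1 := by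
  classical
  have hp : p.Prime := Fact.out
  have hc1 : σ ≠ 1 := by
    intro h
    rw [h, orderOf_one] at hc'
    exact hp.one_lt.ne hc'
  obtain ⟨a0, ha0⟩ : ∃ a0, σ a0 ≠ a0 := by
    by_contra hcon
    push Not at hcon
    exact hc1 (Equiv.ext hcon)
  have hper : MulAction.period σ a0 = p := by
    have h1 : MulAction.period σ a0 ∣ p := hc' ▸ MulAction.period_dvd_orderOf σ a0
    rcases (Nat.dvd_prime hp).mp h1 with h | h
    · exfalso
      exact ha0 (MulAction.period_eq_one_iff.mp h)
    · exact h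
  have key : ∀ i j : ℕ, (σ ^ i) a0 = (σ ^ j) a0 → i ≡ j [MOD p] := by
    have aux : ∀ i j : ℕ, i ≤ j → (σ ^ i) a0 = (σ ^ j) a0 → i ≡ j [MOD p] := by
      intro i j hij h
      obtain ⟨k, rfl⟩ := Nat.exists_eq_add_of_le hij
      rw [pow_add, Equiv.Perm.mul_apply] at h
      have h1 : (σ ^ k) a0 = a0 := ((σ ^ i).injective h).symm
      have h2 : σ ^ k • a0 = a0 := h1
      rw [MulAction.pow_smul_eq_iff_period_dvd, hper] at h2
      rw [Nat.modEq_iff_dvd' hij]
      simpa using h2
    intro i j h
    rcases le_total i j with hij | hij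
    · exact aux i j hij h
    · exact (aux j i hij h.symm).symm
  have key' : ∀ i j : ℕ, i ≡ j [MOD p] → σ ^ i = σ ^ j := by
    intro i j h
    rw [pow_eq_pow_iff_modEq, hc']
    exact h
  have hsurj : ∀ a, ∃ k : ℕ, (σ ^ k) a0 = a := by
    have hinj : Function.Injective (fun k : Fin p => (σ ^ (k : ℕ)) a0) := by
      intro k k' h
      exact Fin.ext (Nat.ModEq.eq_of_lt_of_lt (key _ _ h) k.2 k'.2)
    have hbij := (Fintype.bijective_iff_injective_and_card _).mpr
      ⟨hinj, by rw [Fintype.card_fin, hα]⟩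
    intro a
    obtain ⟨k, hk⟩ := hbij.2 a
    exact ⟨k, hk⟩
  choose k hk using hsurj
  refine ⟨{ x := fun a => ((k a : ℕ) : K)
            inj := ?_
            c := σ
            s := 1
            s_ne := one_ne_zero
            shift := ?_
            card := hα }, rfl, rfl⟩
  · intro a b hab
    have h1 := (CharP.natCast_eq_natCast K p).mp hab
    rw [← hk a, ← hk b, key' _ _ h1]
  · intro a
    have h1 : (σ ^ (k (σ a))) a0 = (σ ^ (k a + 1)) a0 := by
      rw [hk, pow_succ', Equiv.Perm.mul_apply, hk]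
    have h2 := (CharP.natCast_eq_natCast K p).mpr (key _ _ h1)
    rw [h2]
    push_cast
    ring

/-- `p ^ 2` does not divide the order of a permutation group of degree `p`. -/
theorem sq_not_dvd {α : Type*} [Fintype α] [DecidableEq α] {p : ℕ} [Fact p.Prime]
    (hα : Fintype.card α = p) (G : Subgroup (Equiv.Perm α)) : ¬ p ^ 2 ∣ Nat.card G := by
  have hp : p.Prime := Fact.out
  intro h
  have h1 : Nat.card G ∣ p.factorial := by
    have := Subgroup.card_subgroup_dvd_card G
    rwa [Nat.card_eq_fintype_card (α := Equiv.Perm α), Fintype.card_perm, hα] at this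
  have h2 : p ^ 2 ∣ p * (p - 1).factorial := by
    rw [Nat.mul_factorial_pred hp.pos.ne']
    exact h.trans h1
  rw [pow_two] at h2
  have h3 : p ∣ (p - 1).factorial := Nat.dvd_of_mul_dvd_mul_left hp.pos h2
  have h4 := (hp.dvd_factorial).mp h3
  have := hp.pos
  omega

theorem p_dvd_card {α : Type*} [Fintype α] {p : ℕ} [Fact p.Prime]
    (hα : Fintype.card α = p) (G : Subgroup (Equiv.Perm α)) [MulAction.IsPretransitive G α] :
    p ∣ Nat.card G := by
  have hp : p.Prime := Fact.out
  have hne : Nonempty α := by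
    rw [← Fintype.card_pos_iff, hα]; exact hp.pos
  obtain ⟨t⟩ := hne
  have h1 := MulAction.index_stabilizer_of_transitive G t
  rw [Nat.card_eq_fintype_card, hα] at h1
  rw [← h1]
  exact Subgroup.index_dvd_card _

theorem sylow_card {α : Type*} [Fintype α] [DecidableEq α] {p : ℕ} [Fact p.Prime]
    (hα : Fintype.card α = p) (G : Subgroup (Equiv.Perm α)) [MulAction.IsPretransitive G α]
    (P : Sylow p G) : Nat.card P = p := by
  have hp : p.Prime := Fact.out
  obtain ⟨n, hn⟩ := IsPGroup.iff_card.mp P.2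
  have h1 : p ∣ Nat.card P := P.dvd_card_of_dvd_card (p_dvd_card hα G)
  have h2 : ¬ p ^ 2 ∣ Nat.card P := fun h =>
    sq_not_dvd hα G (h.trans (Subgroup.card_subgroup_dvd_card _))
  rw [hn] at h1 h2 ⊢
  have h3 : n ≠ 0 := by
    rintro rfl
    rw [pow_zero] at h1
    exact hp.one_lt.ne' (Nat.dvd_one.mp h1)
  have h4 : n < 2 := by
    by_contra h
    push Not at h
    exact h2 (pow_dvd_pow p h)
  have : n = 1 := by omega
  rw [this, pow_one]

/-- an involution normalising a `p`-cycle. -/
theorem exists_invol {α : Type*} [Fintype α] [DecidableEq α] {p : ℕ} [Fact p.Prime]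
    (hα : Fintype.card α = p) (G : Subgroup (Equiv.Perm α)) [MulAction.IsPretransitive G α]
    (P : Sylow p G)
    (heven : Even (Nat.card (Subgroup.normalizer ((P : Subgroup G) : Set G)))) :
    ∃ c t : G, orderOf c = p ∧ orderOf t = 2 ∧ ∃ j : ℕ, t * c * t⁻¹ = c ^ j := by
  have hp : p.Prime := Fact.out
  have hP := sylow_card hα G P
  obtain ⟨c, hc⟩ := exists_prime_orderOf_dvd_card' (G := (P : Subgroup G)) p (by rw [hP])
  obtain ⟨t, ht⟩ := exists_prime_orderOf_dvd_card'
    (G := Subgroup.normalizer ((P : Subgroup G) : Set G)) 2 (even_iff_two_dvd.mp heven)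
  refine ⟨c, t, by rw [Subgroup.orderOf_coe, hc], by rw [Subgroup.orderOf_coe, ht], ?_⟩
  have h1 : (t : G) * c * (t : G)⁻¹ ∈ (P : Subgroup G) :=
    (Subgroup.mem_normalizer_iff.mp t.2 c).mp c.2
  have hc1 : c ≠ 1 := by
    rintro rfl
    rw [orderOf_one] at hc
    exact hp.one_lt.ne hc
  have h2 : (⟨(t : G) * c * (t : G)⁻¹, h1⟩ : (P : Subgroup G)) ∈ Subgroup.zpowers c :=
    mem_zpowers_of_prime_card hP hc1
  rw [← mem_powers_iff_mem_zpowers] at h2
  obtain ⟨j, hj⟩ := h2
  refine ⟨j, ?_⟩
  have := congrArg Subtype.val hj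
  simpa using this.symm

namespace Shift

variable {α : Type*} [Fintype α] {K : Type*} [Field K] {p : ℕ} (S : Shift α K p)

/-- an involution normalising the `p`-cycle is a reflection. -/
theorem reflect [CharP K p] [Fact p.Prime] (hp2 : p ≠ 2) (t : Equiv.Perm α) (ht : t * t = 1)
    (ht1 : t ≠ 1) (j : ℕ) (hj : t * S.c * t⁻¹ = S.c ^ j) :
    ∃ v : K, ∀ a, S.x (t a) = v - S.x a := by
  have hp : p.Prime := Fact.out
  have h1 : ∀ a, S.x (t (S.c a)) = S.x (t a) + j * S.s := by
    intro a
    have : t * S.c = S.c ^ j * t := by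
      rw [← hj]; group
    have h2 := congrArg (fun f : Equiv.Perm α => f a) this
    simp only [Equiv.Perm.mul_apply] at h2
    rw [h2, S.x_pow]
  have h2 : (fun a => S.x (t a)) ∈ S.V 2 := by
    rw [← S.ker_pow_eq hp.two_le, LinearMap.mem_ker, pow_two, Module.End.mul_apply]
    have : S.D (fun a => S.x (t a)) = fun _ => (j : K) * S.s := by
      ext a
      rw [D_apply, h1]
      ring
    rw [this]
    ext a
    rw [D_apply]
    simp
  obtain ⟨u, v, huv⟩ := S.affine_form h2
  have htt : ∀ a, t (t a) = a := fun a => by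
    have := congrArg (fun f : Equiv.Perm α => f a) ht
    simpa using this
  have h3 : ∀ a, S.x a = u * (u * S.x a + v) + v := by
    intro a
    rw [← huv, ← huv, htt]
  have hne : Nonempty α := by
    rw [← Fintype.card_pos_iff, S.card]; exact hp.pos
  obtain ⟨a0⟩ := hne
  have h4 : (u - 1) * (u + 1) = 0 := by
    have e1 := h3 a0
    have e2 := h3 (S.c a0)
    rw [S.shift] at e2
    have : ((u - 1) * (u + 1)) * S.s = 0 := by linear_combination e1 - e2
    exact (mul_eq_zero.mp this).resolve_right S.s_ne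
  have h2K : (2 : K) ≠ 0 := by
    intro h
    have : ((2 : ℕ) : K) = 0 := by exact_mod_cast h
    rw [CharP.cast_eq_zero_iff K p] at this
    exact hp2 ((Nat.prime_dvd_prime_iff_eq hp Nat.prime_two).mp this)
  rcases mul_eq_zero.mp h4 with hu | hu
  · exfalso
    have hu1 : u = 1 := sub_eq_zero.mp hu
    have e1 := h3 a0
    rw [hu1] at e1
    have hv : v = 0 := by
      have : (2 : K) * v = 0 := by linear_combination -e1
      exact (mul_eq_zero.mp this).resolve_left h2K
    apply ht1
    ext a
    apply S.inj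
    rw [huv, hu1, hv]
    simp
  · refine ⟨v, fun a => ?_⟩
    have hu1 : u = -1 := by linear_combination hu
    rw [huv, hu1]
    ring

end Shift

end Cfsg.Agent.Lib.Helper29.PrimeDeg
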