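import Mathlib

/-! The projective line over a field: explicit `GL₂` elements moving the standard frame. -/

set_option autoImplicit false

namespace Cfsg.Agent.Lib.Helper29.ProjLine

open Projectivization Matrix

variable {F : Type*} [Field F]

theorem inj3 {α : Type*} {a b c : α} (hab : a ≠ b) (hac : a ≠ c) (hbc : b ≠ c) :
    Function.Injective ![a, b, c] := by
  intro i j h
  fin_cases i <;> fin_cases j <;> simp_all

theorem mk_eq_iff_cross {v w : Fin 2 → F} (hv : v ≠ 0) (hw : w ≠ 0) :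
    Projectivization.mk F v hv = Projectivization.mk F w hw ↔ v 0 * w 1 - v 1 * w 0 = 0 := by
  rw [mk_eq_mk_iff']
  constructor
  · rintro ⟨a, rfl⟩
    simp; ring
  · intro h
    by_cases h0 : w 0 = 0
    · have h1 : w 1 ≠ 0 := by
        intro h1
        apply hw
        ext i; fin_cases i
        · exact h0
        · exact h1
      have hv0 : v 0 = 0 := by
        rw [h0] at h
        have : v 0 * w 1 = 0 := by linear_combination h
        exact (mul_eq_zero.1 this).resolve_right h1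
      refine ⟨v 1 / w 1, ?_⟩
      ext i; fin_cases i
      · simp [h0, hv0]
      · simp; field_simp
    · refine ⟨v 0 / w 0, ?_⟩
      ext i; fin_cases i
      · simp; field_simp
      · simp; field_simp; linear_combination h

theorem vec_ne_zero {x y : F} (h : x ≠ 0 ∨ y ≠ 0) : (![x, y] : Fin 2 → F) ≠ 0 := by
  intro h0
  have e0 : x = 0 := congrFun h0 0
  have e1 : y = 0 := congrFun h0 1
  rcases h with h | h
  · exact h e0
  · exact h e1

/-- the three points of the standard frame, and the points `(1 : n)`. -/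
noncomputable def P0 : Projectivization F (Fin 2 → F) :=
  Projectivization.mk F ![1, 0] (vec_ne_zero (Or.inl one_ne_zero))
noncomputable def P1 : Projectivization F (Fin 2 → F) :=
  Projectivization.mk F ![0, 1] (vec_ne_zero (Or.inr one_ne_zero))
noncomputable def Pn (n : F) : Projectivization F (Fin 2 → F) :=
  Projectivization.mk F ![1, n] (vec_ne_zero (Or.inl one_ne_zero))

theorem P0_ne_P1 : (P0 : Projectivization F (Fin 2 → F)) ≠ P1 := by
  rw [P0, P1, Ne, mk_eq_iff_cross]; simp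

theorem P0_ne_Pn {n : F} (hn : n ≠ 0) : (P0 : Projectivization F (Fin 2 → F)) ≠ Pn n := by
  rw [P0, Pn, Ne, mk_eq_iff_cross]; simpa using hn

theorem P1_ne_Pn (n : F) : (P1 : Projectivization F (Fin 2 → F)) ≠ Pn n := by
  rw [P1, Pn, Ne, mk_eq_iff_cross]; simp

theorem GL_smul_mk (g : GL (Fin 2) F) (x y : F) (h : (![x, y] : Fin 2 → F) ≠ 0)
    (h' : (![g 0 0 * x + g 0 1 * y, g 1 0 * x + g 1 1 * y] : Fin 2 → F) ≠ 0) :
    g • Projectivization.mk F ![x, y] h =
      Projectivization.mk F ![g 0 0 * x + g 0 1 * y, g 1 0 * x + g 1 1 * y] h' := by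
  rw [smul_mk]
  congr 1
  ext i
  fin_cases i <;> simp [Units.smul_def, Matrix.smul_eq_mulVec, Matrix.mulVec, dotProduct,
    Fin.sum_univ_two]

theorem GL_smul_mk_eq_iff (g : GL (Fin 2) F) (x y : F) (h : (![x, y] : Fin 2 → F) ≠ 0)
    (w : Fin 2 → F) (hw : w ≠ 0) :
    g • Projectivization.mk F ![x, y] h = Projectivization.mk F w hw ↔
      (g 0 0 * x + g 0 1 * y) * w 1 - (g 1 0 * x + g 1 1 * y) * w 0 = 0 := by
  rw [smul_mk, mk_eq_iff_cross]
  simp [Units.smul_def, Matrix.smul_eq_mulVec, Matrix.mulVec, dotProduct, Fin.sum_univ_two]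

theorem SL_smul_eq (g : SpecialLinearGroup (Fin 2) F) (x : Projectivization F (Fin 2 → F)) :
    g • x = (SpecialLinearGroup.toGL g) • x := by
  induction x using Projectivization.ind with | _ v hv =>
  rw [smul_mk, smul_mk]
  rfl

theorem exists_mat {a b c : Projectivization F (Fin 2 → F)} (hab : a ≠ b) (hac : a ≠ c)
    (hbc : b ≠ c) : ∃ p q r s : F, p * s - q * r ≠ 0 ∧ ∀ t : F, ∀ g : GL (Fin 2) F,
      (g : Matrix (Fin 2) (Fin 2) F) = !![t * p, t * q; t * r, t * s] →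
      g • P0 = a ∧ g • P1 = b ∧ g • Pn 1 = c := by
  induction a using Projectivization.ind with | _ u hu =>
  induction b using Projectivization.ind with | _ v hv =>
  induction c using Projectivization.ind with | _ w hw =>
  rw [Ne, mk_eq_iff_cross] at hab hac hbc
  refine ⟨(w 0 * v 1 - w 1 * v 0) * u 0, (u 0 * w 1 - u 1 * w 0) * v 0,
    (w 0 * v 1 - w 1 * v 0) * u 1, (u 0 * w 1 - u 1 * w 0) * v 1, ?_, ?_⟩
  · have e : (w 0 * v 1 - w 1 * v 0) * u 0 * ((u 0 * w 1 - u 1 * w 0) * v 1) -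
        (u 0 * w 1 - u 1 * w 0) * v 0 * ((w 0 * v 1 - w 1 * v 0) * u 1) =
        -((v 0 * w 1 - v 1 * w 0) * (u 0 * w 1 - u 1 * w 0) * (u 0 * v 1 - u 1 * v 0)) := by ring
    rw [e]
    exact neg_ne_zero.2 (mul_ne_zero (mul_ne_zero hbc hac) hab)
  · intro t g hg
    have g00 : g 0 0 = t * ((w 0 * v 1 - w 1 * v 0) * u 0) := by
      show (g : Matrix (Fin 2) (Fin 2) F) 0 0 = _
      rw [hg]; rfl
    have g01 : g 0 1 = t * ((u 0 * w 1 - u 1 * w 0) * v 0) := by
      show (g : Matrix (Fin 2) (Fin 2) F) 0 1 = _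
      rw [hg]; rfl
    have g10 : g 1 0 = t * ((w 0 * v 1 - w 1 * v 0) * u 1) := by
      show (g : Matrix (Fin 2) (Fin 2) F) 1 0 = _
      rw [hg]; rfl
    have g11 : g 1 1 = t * ((u 0 * w 1 - u 1 * w 0) * v 1) := by
      show (g : Matrix (Fin 2) (Fin 2) F) 1 1 = _
      rw [hg]; rfl
    refine ⟨?_, ?_, ?_⟩
    · rw [P0, GL_smul_mk_eq_iff, g00, g01, g10, g11]; ring
    · rw [P1, GL_smul_mk_eq_iff, g00, g01, g10, g11]; ring
    · rw [Pn, GL_smul_mk_eq_iff, g00, g01, g10, g11]; ring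

theorem exists_GL {a b c : Projectivization F (Fin 2 → F)} (hab : a ≠ b) (hac : a ≠ c)
    (hbc : b ≠ c) : ∃ g : GL (Fin 2) F, g • P0 = a ∧ g • P1 = b ∧ g • Pn 1 = c := by
  obtain ⟨p, q, r, s, hd, h⟩ := exists_mat hab hac hbc
  refine ⟨GeneralLinearGroup.mkOfDetNeZero !![1 * p, 1 * q; 1 * r, 1 * s]
    (by rw [Matrix.det_fin_two_of]; simpa using hd), h 1 _ rfl⟩

theorem exists_SL (hsq : ∀ x : F, IsSquare x) {a b c : Projectivization F (Fin 2 → F)}
    (hab : a ≠ b) (hac : a ≠ c) (hbc : b ≠ c) :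
    ∃ g : SpecialLinearGroup (Fin 2) F, g • P0 = a ∧ g • P1 = b ∧ g • Pn 1 = c := by
  obtain ⟨p, q, r, s, hd, h⟩ := exists_mat hab hac hbc
  obtain ⟨t, ht⟩ := hsq (p * s - q * r)⁻¹
  have hdet : (!![t * p, t * q; t * r, t * s] : Matrix (Fin 2) (Fin 2) F).det = 1 := by
    rw [Matrix.det_fin_two_of]
    have : (p * s - q * r)⁻¹ * (p * s - q * r) = 1 := inv_mul_cancel₀ hd
    rw [ht] at this
    linear_combination this
  obtain ⟨g, hg⟩ : ∃ g : SpecialLinearGroup (Fin 2) F,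
      (g : Matrix (Fin 2) (Fin 2) F) = !![t * p, t * q; t * r, t * s] := ⟨⟨_, hdet⟩, rfl⟩
  refine ⟨g, ?_⟩
  rw [SL_smul_eq, SL_smul_eq, SL_smul_eq]
  exact h t _ hg

theorem fix_P0 {g : GL (Fin 2) F} (h : g • (P0 : Projectivization F (Fin 2 → F)) = P0) :
    g 1 0 = 0 := by
  rw [P0, GL_smul_mk_eq_iff] at h
  simpa using h

theorem fix_P1 {g : GL (Fin 2) F} (h : g • (P1 : Projectivization F (Fin 2 → F)) = P1) :
    g 0 1 = 0 := by
  rw [P1, GL_smul_mk_eq_iff] at h
  simpa using h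

theorem map_Pn {g : GL (Fin 2) F} {m n : F}
    (h : g • (Pn m : Projectivization F (Fin 2 → F)) = Pn n) :
    (g 0 0 + g 0 1 * m) * n - (g 1 0 + g 1 1 * m) = 0 := by
  rw [Pn, Pn, GL_smul_mk_eq_iff] at h
  simpa using h

end Cfsg.Agent.Lib.Helper29.ProjLine
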