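import Mathlib

set_option autoImplicit false

namespace Cfsg.Agent.Lib.Helper29.Sharp4

variable {G Ω : Type*} [Group G] [MulAction G Ω]

/-- four pairwise distinct points -/
def D4 (a b c d : Ω) : Prop := a ≠ b ∧ a ≠ c ∧ a ≠ d ∧ b ≠ c ∧ b ≠ d ∧ c ≠ d

/-- sharply 4-transitive actions, elementwise -/
structure IsSharp4 (G Ω : Type*) [Group G] [MulAction G Ω] : Prop where
  trans : ∀ {a b c d a' b' c' d' : Ω}, D4 a b c d → D4 a' b' c' d' →
    ∃ g : G, g • a = a' ∧ g • b = b' ∧ g • c = c' ∧ g • d = d'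
  sharp : ∀ {g : G} {a b c d : Ω}, D4 a b c d → g • a = a → g • b = b → g • c = c → g • d = d → g = 1

theorem D4.injective {a b c d : Ω} (h : D4 a b c d) : Function.Injective ![a, b, c, d] := by
  obtain ⟨h1, h2, h3, h4, h5, h6⟩ := h
  intro i j hij
  fin_cases i <;> fin_cases j <;> simp_all

theorem isSharp4_of (h4 : MulAction.IsMultiplyPretransitive G Ω 4)
    (hsharp : ∀ x : Fin 4 ↪ Ω, MulAction.stabilizer G x = ⊥) : IsSharp4 G Ω where
  trans := by
    intro a b c d a' b' c' d' h h'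
    obtain ⟨g, hg⟩ := h4.exists_smul_eq (⟨![a, b, c, d], h.injective⟩ : Fin 4 ↪ Ω) ⟨![a', b', c', d'], h'.injective⟩
    exact ⟨g, DFunLike.congr_fun hg 0, DFunLike.congr_fun hg 1, DFunLike.congr_fun hg 2, DFunLike.congr_fun hg 3⟩
  sharp := by
    intro g a b c d h ha hb hc hd
    have hmem : g ∈ MulAction.stabilizer G (⟨![a, b, c, d], h.injective⟩ : Fin 4 ↪ Ω) := by
      rw [MulAction.mem_stabilizer_iff]
      ext i
      fin_cases i
      · exact ha
      · exact hb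
      · exact hc
      · exact hd
    rw [hsharp] at hmem
    exact Subgroup.mem_bot.mp hmem

theorem IsSharp4.eq_of_agree (h : IsSharp4 G Ω) {g k : G} {a b c d : Ω} (hD : D4 a b c d)
    (ha : g • a = k • a) (hb : g • b = k • b) (hc : g • c = k • c) (hd : g • d = k • d) : g = k := by
  have : k⁻¹ * g = 1 := h.sharp hD (by rw [mul_smul, ha, inv_smul_smul]) (by rw [mul_smul, hb, inv_smul_smul])
    (by rw [mul_smul, hc, inv_smul_smul]) (by rw [mul_smul, hd, inv_smul_smul])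
  exact (inv_mul_eq_one.mp this).symm

theorem IsSharp4.fix_encard_le (h : IsSharp4 G Ω) {g : G} (hg : g ≠ 1) : {ω : Ω | g • ω = ω}.encard ≤ 3 := by
  by_contra hcon
  push Not at hcon
  have h4 : (4 : ℕ∞) ≤ {ω : Ω | g • ω = ω}.encard := by
    have := Order.add_one_le_of_lt hcon
    have e : (3 : ℕ∞) + 1 = 4 := by norm_num
    rwa [e] at this
  obtain ⟨t, ht, htc⟩ := Set.exists_subset_encard_eq h4
  obtain ⟨a, b, c, d, h1, h2, h3, h4', h5, h6, rfl⟩ := Set.encard_eq_four.mp htc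
  exact hg (h.sharp ⟨h1, h2, h3, h4', h5, h6⟩ (ht (by simp)) (ht (by simp)) (ht (by simp)) (ht (by simp)))

theorem four_le (a b c d : Ω) : ({a, b, c, d} : Set Ω).encard ≤ 4 := by
  calc ({a, b, c, d} : Set Ω).encard ≤ ({b, c, d} : Set Ω).encard + 1 := Set.encard_insert_le _ _
    _ ≤ (({c, d} : Set Ω).encard + 1) + 1 := by gcongr; exact Set.encard_insert_le _ _
    _ ≤ ((({d} : Set Ω).encard + 1) + 1) + 1 := by gcongr; exact Set.encard_insert_le _ _
    _ = 4 := by rw [Set.encard_singleton]; norm_num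

/-- the data of the two commuting involutions -/
structure Pair (x y : G) (p1 p2 p3 p4 : Ω) : Prop where
  hD : D4 p1 p2 p3 p4
  x1 : x • p1 = p2
  x2 : x • p2 = p1
  x3 : x • p3 = p3
  x4 : x • p4 = p4
  y1 : y • p1 = p1
  y2 : y • p2 = p2
  y3 : y • p3 = p4
  y4 : y • p4 = p3

theorem IsSharp4.exists_pair (h : IsSharp4 G Ω) {p1 p2 p3 p4 : Ω} (hD : D4 p1 p2 p3 p4) :
    ∃ x y : G, Pair x y p1 p2 p3 p4 := by
  obtain ⟨h12, h13, h14, h23, h24, h34⟩ := hD
  obtain ⟨x, hx1, hx2, hx3, hx4⟩ := h.trans (a := p1) (b := p2) (c := p3) (d := p4) (a' := p2) (b' := p1)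
    (c' := p3) (d' := p4) ⟨h12, h13, h14, h23, h24, h34⟩ ⟨h12.symm, h23, h24, h13, h14, h34⟩
  obtain ⟨y, hy1, hy2, hy3, hy4⟩ := h.trans (a := p1) (b := p2) (c := p3) (d := p4) (a' := p1) (b' := p2)
    (c' := p4) (d' := p3) ⟨h12, h13, h14, h23, h24, h34⟩ ⟨h12, h14, h13, h24, h23, h34.symm⟩
  exact ⟨x, y, ⟨h12, h13, h14, h23, h24, h34⟩, hx1, hx2, hx3, hx4, hy1, hy2, hy3, hy4⟩

section
variable {x y : G} {p1 p2 p3 p4 : Ω}

theorem Pair.xx (P : Pair x y p1 p2 p3 p4) (h : IsSharp4 G Ω) : x * x = 1 :=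
  h.sharp P.hD (by rw [mul_smul, P.x1, P.x2]) (by rw [mul_smul, P.x2, P.x1]) (by rw [mul_smul, P.x3, P.x3])
    (by rw [mul_smul, P.x4, P.x4])

theorem Pair.yy (P : Pair x y p1 p2 p3 p4) (h : IsSharp4 G Ω) : y * y = 1 :=
  h.sharp P.hD (by rw [mul_smul, P.y1, P.y1]) (by rw [mul_smul, P.y2, P.y2]) (by rw [mul_smul, P.y3, P.y4])
    (by rw [mul_smul, P.y4, P.y3])

theorem Pair.comm (P : Pair x y p1 p2 p3 p4) (h : IsSharp4 G Ω) : x * y = y * x :=
  h.eq_of_agree P.hD (by rw [mul_smul, mul_smul, P.y1, P.x1, P.y2]) (by rw [mul_smul, mul_smul, P.y2, P.x2, P.y1])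
    (by rw [mul_smul, mul_smul, P.y3, P.x3, P.x4, P.y3]) (by rw [mul_smul, mul_smul, P.y4, P.x4, P.x3, P.y4])

theorem Pair.xx' (P : Pair x y p1 p2 p3 p4) (h : IsSharp4 G Ω) (ω : Ω) : x • x • ω = ω := by
  rw [← mul_smul, P.xx h, one_smul]

theorem Pair.yy' (P : Pair x y p1 p2 p3 p4) (h : IsSharp4 G Ω) (ω : Ω) : y • y • ω = ω := by
  rw [← mul_smul, P.yy h, one_smul]

theorem Pair.comm' (P : Pair x y p1 p2 p3 p4) (h : IsSharp4 G Ω) (ω : Ω) : y • x • ω = x • y • ω := by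
  rw [← mul_smul, ← P.comm h, mul_smul]

theorem Pair.x_ne (P : Pair x y p1 p2 p3 p4) : x ≠ 1 := by
  intro hx
  have := P.x1
  rw [hx, one_smul] at this
  exact P.hD.1 this

theorem Pair.y_ne (P : Pair x y p1 p2 p3 p4) : y ≠ 1 := by
  intro hy
  have := P.y3
  rw [hy, one_smul] at this
  exact P.hD.2.2.2.2.2 this

theorem Pair.xy_ne (P : Pair x y p1 p2 p3 p4) : x * y ≠ 1 := by
  intro hxy
  have : (x * y) • p1 = p2 := by rw [mul_smul, P.y1, P.x1]
  rw [hxy, one_smul] at this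
  exact P.hD.1 this

/-- swap the roles of `x` and `y` -/
theorem Pair.symm (P : Pair x y p1 p2 p3 p4) : Pair y x p3 p4 p1 p2 := by
  obtain ⟨h12, h13, h14, h23, h24, h34⟩ := P.hD
  exact ⟨⟨h34, h13.symm, h23.symm, h14.symm, h24.symm, h12⟩, P.y3, P.y4, P.y1, P.y2, P.x3, P.x4, P.x1, P.x2⟩

theorem Pair.claimA (P : Pair x y p1 p2 p3 p4) (h : IsSharp4 G Ω) {ω : Ω} (h3 : ω ≠ p3) (h4 : ω ≠ p4)
    (hx : x • ω = ω) : y • ω = ω := by
  by_contra hne
  apply P.x_ne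
  refine h.sharp (a := p3) (b := p4) (c := ω) (d := y • ω)
    ⟨P.hD.2.2.2.2.2, h3.symm, ?_, h4.symm, ?_, fun e => hne e.symm⟩ P.x3 P.x4 hx ?_
  · intro e
    apply h4
    rw [← P.yy' h ω, ← e, P.y3]
  · intro e
    apply h3
    rw [← P.yy' h ω, ← e, P.y4]
  · rw [← P.comm' h, hx]

theorem Pair.claimB (P : Pair x y p1 p2 p3 p4) (h : IsSharp4 G Ω) {ω : Ω} (h1 : ω ≠ p1) (h2 : ω ≠ p2)
    (hy : y • ω = ω) : x • ω = ω := P.symm.claimA h h1 h2 hy

theorem Pair.reg_D4 (P : Pair x y p1 p2 p3 p4) (h : IsSharp4 G Ω) {q : Ω} (hx : x • q ≠ q) (hy : y • q ≠ q)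
    (hxy : x • y • q ≠ q) : D4 q (x • q) (y • q) (x • y • q) := by
  refine ⟨hx.symm, hy.symm, hxy.symm, ?_, ?_, ?_⟩
  · intro e
    apply hxy
    rw [← e, P.xx' h]
  · intro e
    exact hy (MulAction.injective x e).symm
  · intro e
    rw [← P.comm' h] at e
    exact hx (MulAction.injective y e).symm

theorem Pair.claimC (P : Pair x y p1 p2 p3 p4) (h : IsSharp4 G Ω) {q q' : Ω} (hx : x • q ≠ q) (hy : y • q ≠ q)
    (hxy : x • y • q ≠ q) (hx' : x • q' ≠ q') (hy' : y • q' ≠ q') (hxy' : x • y • q' ≠ q') :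
    q' ∈ ({q, x • q, y • q, x • y • q} : Set Ω) := by
  have hDq := P.reg_D4 h hx hy hxy
  obtain ⟨g, g1, g2, g3, g4⟩ := h.trans hDq (P.reg_D4 h hx' hy' hxy')
  have hgx : g * x = x * g := by
    refine h.eq_of_agree hDq ?_ ?_ ?_ ?_
    · rw [mul_smul, mul_smul, g2, g1]
    · rw [mul_smul, mul_smul, P.xx' h, g1, g2, P.xx' h]
    · rw [mul_smul, mul_smul, g4, g3]
    · rw [mul_smul, mul_smul, P.xx' h, g3, g4, P.xx' h]
  have hgy : g * y = y * g := by
    refine h.eq_of_agree hDq ?_ ?_ ?_ ?_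
    · rw [mul_smul, mul_smul, g3, g1]
    · rw [mul_smul, mul_smul, P.comm' h, g4, g2, P.comm' h]
    · rw [mul_smul, mul_smul, P.yy' h, g1, g3, P.yy' h]
    · rw [mul_smul, mul_smul, P.comm' h, P.yy' h, g2, g4, P.comm' h, P.yy' h]
  have hgx' : ∀ ω : Ω, g • x • ω = x • g • ω := fun ω => by rw [← mul_smul, hgx, mul_smul]
  have hgy' : ∀ ω : Ω, g • y • ω = y • g • ω := fun ω => by rw [← mul_smul, hgy, mul_smul]
  have h3 : g • p3 = p3 ∨ g • p3 = p4 := by
    by_contra hcon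
    push Not at hcon
    have e1 : x • g • p3 = g • p3 := by rw [← hgx', P.x3]
    have e2 := P.claimA h hcon.1 hcon.2 e1
    rw [← hgy', P.y3] at e2
    exact P.hD.2.2.2.2.2 (MulAction.injective g e2).symm
  have h1 : g • p1 = p1 ∨ g • p1 = p2 := by
    by_contra hcon
    push Not at hcon
    have e1 : y • g • p1 = g • p1 := by rw [← hgy', P.y1]
    have e2 := P.claimB h hcon.1 hcon.2 e1
    rw [← hgx', P.x1] at e2
    exact P.hD.1 (MulAction.injective g e2).symm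
  have h2 : g • p2 = x • g • p1 := by rw [← hgx', P.x1]
  have h4 : g • p4 = y • g • p3 := by rw [← hgy', P.y3]
  simp only [Set.mem_insert_iff, Set.mem_singleton_iff]
  rcases h1 with h1 | h1 <;> rcases h3 with h3 | h3
  · have : g = 1 := h.eq_of_agree P.hD (by rw [h1, one_smul]) (by rw [h2, h1, P.x1, one_smul])
      (by rw [h3, one_smul]) (by rw [h4, h3, P.y3, one_smul])
    left
    rw [← g1, this, one_smul]
  · have : g = y := h.eq_of_agree P.hD (by rw [h1, P.y1]) (by rw [h2, h1, P.x1, P.y2])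
      (by rw [h3, P.y3]) (by rw [h4, h3, P.y4])
    right; right; left
    rw [← g1, this]
  · have : g = x := h.eq_of_agree P.hD (by rw [h1, P.x1]) (by rw [h2, h1, P.x2])
      (by rw [h3, P.x3]) (by rw [h4, h3, P.y3, P.x4])
    right; left
    rw [← g1, this]
  · have : g = x * y := h.eq_of_agree P.hD (by rw [h1, mul_smul, P.y1, P.x1]) (by rw [h2, h1, P.x2, mul_smul, P.y2, P.x2])
      (by rw [h3, mul_smul, P.y3, P.x4]) (by rw [h4, h3, P.y4, mul_smul, P.y4, P.x3])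
    right; right; right
    rw [← g1, this, mul_smul]

theorem Pair.cover (P : Pair x y p1 p2 p3 p4) (h : IsSharp4 G Ω) (ω : Ω) :
    ω ∈ ({p1, p2, p3, p4} : Set Ω) ∨ x • y • ω = ω ∨ (x • ω ≠ ω ∧ y • ω ≠ ω ∧ x • y • ω ≠ ω) := by
  by_cases hb : ω ∈ ({p1, p2, p3, p4} : Set Ω)
  · exact Or.inl hb
  right
  simp only [Set.mem_insert_iff, Set.mem_singleton_iff, not_or] at hb
  by_cases hxy : x • y • ω = ω
  · exact Or.inl hxy
  right
  refine ⟨?_, ?_, hxy⟩
  · intro hx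
    apply hxy
    rw [P.claimA h hb.2.2.1 hb.2.2.2 hx, hx]
  · intro hy
    apply hxy
    rw [hy, P.claimB h hb.1 hb.2.1 hy]

theorem IsSharp4.encard_le (h : IsSharp4 G Ω) {p1 p2 p3 p4 : Ω} (hD : D4 p1 p2 p3 p4) :
    (Set.univ : Set Ω).encard ≤ 11 := by
  obtain ⟨x, y, P⟩ := h.exists_pair hD
  have hF : {ω : Ω | (x * y) • ω = ω}.encard ≤ 3 := h.fix_encard_le P.xy_ne
  by_cases hR : ∃ q : Ω, x • q ≠ q ∧ y • q ≠ q ∧ x • y • q ≠ q
  · obtain ⟨q, hq1, hq2, hq3⟩ := hR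
    have hsub : (Set.univ : Set Ω) ⊆ ({p1, p2, p3, p4} ∪ {ω : Ω | (x * y) • ω = ω}) ∪ {q, x • q, y • q, x • y • q} := by
      intro ω _
      rcases P.cover h ω with h1 | h1 | ⟨h1, h2, h3⟩
      · exact Or.inl (Or.inl h1)
      · exact Or.inl (Or.inr (by rw [Set.mem_ofPred_eq, mul_smul]; exact h1))
      · exact Or.inr (P.claimC h hq1 hq2 hq3 h1 h2 h3)
    calc (Set.univ : Set Ω).encard ≤ _ := Set.encard_le_encard hsub
      _ ≤ ({p1, p2, p3, p4} ∪ {ω : Ω | (x * y) • ω = ω}).encard + ({q, x • q, y • q, x • y • q} : Set Ω).encard :=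
        Set.encard_union_le _ _
      _ ≤ (({p1, p2, p3, p4} : Set Ω).encard + {ω : Ω | (x * y) • ω = ω}.encard) + ({q, x • q, y • q, x • y • q} : Set Ω).encard := by
        gcongr; exact Set.encard_union_le _ _
      _ ≤ (4 + 3) + 4 := by
        gcongr
        · exact four_le _ _ _ _
        · exact four_le _ _ _ _
      _ = 11 := by norm_num
  · push Not at hR
    have hsub : (Set.univ : Set Ω) ⊆ ({p1, p2, p3, p4} ∪ {ω : Ω | (x * y) • ω = ω}) := by
      intro ω _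
      rcases P.cover h ω with h1 | h1 | ⟨h1, h2, h3⟩
      · exact Or.inl h1
      · exact Or.inr (by rw [Set.mem_ofPred_eq, mul_smul]; exact h1)
      · exact absurd (hR ω h1 h2) h3
    calc (Set.univ : Set Ω).encard ≤ _ := Set.encard_le_encard hsub
      _ ≤ ({p1, p2, p3, p4} : Set Ω).encard + {ω : Ω | (x * y) • ω = ω}.encard := Set.encard_union_le _ _
      _ ≤ 4 + 3 := by
        gcongr
        exact four_le _ _ _ _
      _ ≤ 11 := by norm_num

end

end Cfsg.Agent.Lib.Helper29.Sharp4
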