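import Mathlib

set_option autoImplicit false

namespace Cfsg.Agent.Lib.Helper29.TwoPart

/-- decomposition `n = 2 ^ v₂(n) * odd`. -/
theorem decomp {n : ℕ} (hn : n ≠ 0) : ∃ r, Odd r ∧ n = 2 ^ padicValNat 2 n * r := by
  obtain ⟨k, r, hr, h⟩ := Nat.exists_eq_two_pow_mul_odd hn
  have hr0 : r ≠ 0 := by
    rintro rfl
    simp at hr
  have hk : padicValNat 2 n = k := by
    rw [h, padicValNat.mul (pow_ne_zero _ two_ne_zero) hr0, padicValNat.prime_pow,
      padicValNat.eq_zero_of_not_dvd (by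
        intro hd
        exact (Nat.not_even_iff_odd.2 hr) (even_iff_two_dvd.2 hd)), add_zero]
  exact ⟨r, hr, by rw [hk]; exact h⟩

variable {F : Type*} [Field F] [Fintype F]

theorem neg_one_ne_one (hq : Odd (Fintype.card F)) : (-1 : F) ≠ 1 := by
  intro h
  have h2 : (2 : F) = 0 := by
    have : (1 : F) + 1 = 0 := by
      nth_rewrite 1 [← h]
      simp
    rw [← this]; norm_num
  haveI : CharP F 2 := by
    apply CharTwo.of_one_ne_zero_of_two_eq_zero one_ne_zero h2
  have := FiniteField.even_card_of_char_two (F := F) (ringChar.eq F 2)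
  have h3 := Nat.odd_iff.1 hq
  omega

/-- an element of order `2 ^ (a+1)` has `2 ^ a`-th power `-1`. -/
theorem pow_eq_neg_one (u : F) (a : ℕ) (hu : orderOf u = 2 ^ (a + 1)) : u ^ (2 ^ a) = -1 := by
  have h1 : u ^ (2 ^ a) * u ^ (2 ^ a) = 1 := by
    rw [← pow_add, ← two_mul, ← pow_succ', ← hu, pow_orderOf_eq_one]
  rcases mul_self_eq_one_iff.1 h1 with h | h
  · exfalso
    refine pow_ne_one_of_lt_orderOf (x := u) (n := 2 ^ a) (by positivity) ?_ h
    rw [hu]
    exact Nat.pow_lt_pow_right (by norm_num) (by omega)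
  · exact h

theorem exists_order (d : ℕ) (hd : d ∣ Fintype.card F - 1) : ∃ u : F, orderOf u = d := by
  classical
  obtain ⟨g, hg⟩ := IsCyclic.exists_ofOrder_eq_natCard (α := Fˣ)
  rw [Nat.card_eq_fintype_card, Fintype.card_units] at hg
  have hpos : 0 < Fintype.card F - 1 := by
    have := Fintype.one_lt_card (α := F)
    omega
  refine ⟨((g ^ (orderOf g / d) : Fˣ) : F), ?_⟩
  rw [orderOf_units]
  apply orderOf_pow_orderOf_div
  · rw [hg]; omega
  · rw [hg]; exact hd

/-- `-1` is an `n`-th power iff `v₂(n) < v₂(q-1)`. -/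
theorem neg_one_pow_iff (hq : Odd (Fintype.card F)) {n : ℕ} (hn : 1 ≤ n) :
    (∃ c : F, c ^ n = -1) ↔ padicValNat 2 n < padicValNat 2 (Fintype.card F - 1) := by
  have hpos : Fintype.card F - 1 ≠ 0 := by
    have := Fintype.one_lt_card (α := F)
    omega
  obtain ⟨r, hr, hqr⟩ := decomp hpos
  obtain ⟨n', hn', hnn⟩ := decomp (n := n) (by omega)
  constructor
  · rintro ⟨c, hc⟩
    by_contra hlt
    push Not at hlt
    have hc0 : c ≠ 0 := by
      rintro rfl
      rw [zero_pow (by omega)] at hc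
      exact neg_ne_zero.2 one_ne_zero hc.symm
    obtain ⟨k, hk⟩ := (padicValNat_dvd_iff_le (p := 2) (a := n) (by omega)).2 hlt
    have h1 : c ^ (n * r) = 1 := by
      have : n * r = (Fintype.card F - 1) * k := by
        conv_lhs => rw [hk]
        conv_rhs => rw [hqr]
        ring
      rw [this, pow_mul, FiniteField.pow_card_sub_one_eq_one c hc0, one_pow]
    rw [pow_mul, hc, hr.neg_one_pow] at h1
    exact neg_one_ne_one hq h1
  · intro hlt
    obtain ⟨u, hu⟩ := exists_order (F := F) (2 ^ (padicValNat 2 n + 1))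
      ((padicValNat_dvd_iff_le (p := 2) hpos).2 hlt)
    refine ⟨u, ?_⟩
    conv_lhs => rw [hnn]
    rw [pow_mul, pow_eq_neg_one u _ hu, hn'.neg_one_pow]

end Cfsg.Agent.Lib.Helper29.TwoPart
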