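import Mathlib

set_option autoImplicit false

namespace Cfsg.Agent.Lib.Helper29.WittExt

variable {α : Type*}

/-- normal form: every element of `⟨K, h⟩` lies in `K ∪ K h K`. -/
theorem form (K : Subgroup (Equiv.Perm α)) (h g : Equiv.Perm α) (x y : α)
    (hg : g ∈ K) (hgx : g x = y)
    (h2t : ∀ a ∈ K, a x ≠ x → ∃ u ∈ K, u x = x ∧ u (a x) = y)
    (h6 : (g * h) ^ 3 ∈ K) (h7 : h ^ 2 ∈ K)
    (h8 : ∀ f ∈ K, f x = x → h * f * h ∈ K) :
    ∀ f ∈ Subgroup.closure ((K : Set (Equiv.Perm α)) ∪ {h}),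
      f ∈ K ∨ ∃ a ∈ K, ∃ b ∈ K, f = a * h * b := by
  have hC : ∀ a ∈ K, h * a * h ∈ K ∨ ∃ a' ∈ K, ∃ b' ∈ K, h * a * h = a' * h * b' := by
    intro a ha
    by_cases hax : a x = x
    · exact Or.inl (h8 a ha hax)
    · obtain ⟨u, hu, hux, huz⟩ := h2t a ha hax
      right
      have hv : g⁻¹ * u * a ∈ K := K.mul_mem (K.mul_mem (K.inv_mem hg) hu) ha
      have hvx : (g⁻¹ * u * a) x = x := by
        simp only [Equiv.Perm.mul_apply, huz]
        rw [← hgx]; simp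
      have hu' : u⁻¹ x = x := by
        conv_lhs => rw [← hux]
        simp
      refine ⟨(h * u⁻¹ * h) * (h ^ 2)⁻¹ * g⁻¹ * (g * h) ^ 3 * (h ^ 2)⁻¹, ?_,
        g⁻¹ * (h ^ 2)⁻¹ * (h * (g⁻¹ * u * a) * h), ?_, ?_⟩
      · exact K.mul_mem (K.mul_mem (K.mul_mem (K.mul_mem (h8 _ (K.inv_mem hu) hu')
          (K.inv_mem h7)) (K.inv_mem hg)) h6) (K.inv_mem h7)
      · exact K.mul_mem (K.mul_mem (K.inv_mem hg) (K.inv_mem h7)) (h8 _ hv hvx)
      · rw [show (g * h) ^ 3 = g * h * (g * h) * (g * h) from by simp [pow_succ]]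
        group
  have hK : ∀ c ∈ K, ∀ f, (f ∈ K ∨ ∃ a ∈ K, ∃ b ∈ K, f = a * h * b) →
      (c * f ∈ K ∨ ∃ a ∈ K, ∃ b ∈ K, c * f = a * h * b) := by
    intro c hc f hf
    rcases hf with hf | ⟨a, ha, b, hb, rfl⟩
    · exact Or.inl (K.mul_mem hc hf)
    · exact Or.inr ⟨c * a, K.mul_mem hc ha, b, hb, by group⟩
  have hh : ∀ f, (f ∈ K ∨ ∃ a ∈ K, ∃ b ∈ K, f = a * h * b) →
      (h * f ∈ K ∨ ∃ a ∈ K, ∃ b ∈ K, h * f = a * h * b) := by
    intro f hf
    rcases hf with hf | ⟨a, ha, b, hb, rfl⟩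
    · exact Or.inr ⟨1, K.one_mem, f, hf, by group⟩
    · rcases hC a ha with h1 | ⟨a', ha', b', hb', h1⟩
      · left
        have : h * (a * h * b) = (h * a * h) * b := by group
        rw [this]; exact K.mul_mem h1 hb
      · right
        refine ⟨a', ha', b' * b, K.mul_mem hb' hb, ?_⟩
        have : h * (a * h * b) = (h * a * h) * b := by group
        rw [this, h1]; group
  intro f hf
  induction hf using Subgroup.closure_induction_left with
  | one => exact Or.inl K.one_mem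
  | mul_left c hc f _ ih =>
    rcases hc with hc | hc
    · exact hK c hc f ih
    · rw [Set.mem_singleton_iff] at hc
      subst hc
      exact hh f ih
  | inv_mul_cancel c hc f _ ih =>
    rcases hc with hc | hc
    · exact hK _ (K.inv_mem hc) f ih
    · rw [Set.mem_singleton_iff] at hc
      subst hc
      have : c⁻¹ * f = (c ^ 2)⁻¹ * (c * f) := by group
      rw [this]
      exact hK _ (K.inv_mem h7) _ (hh f ih)

/-- one point extension. -/
theorem ext (K : Subgroup (Equiv.Perm α)) (D : Set α) (w : α) (hw : w ∉ D)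
    (hKw : ∀ f ∈ K, f w = w) (hKD : ∀ f ∈ K, ∀ a ∈ D, f a ∈ D)
    (h2 : ∀ a b c d, a ∈ D → b ∈ D → c ∈ D → d ∈ D → a ≠ b → c ≠ d →
      ∃ f ∈ K, f a = c ∧ f b = d)
    (k : ℕ) (hk : ∀ a b : Fin k ↪ α, (∀ i, a i ∈ D) → (∀ i, b i ∈ D) →
      ∃ f ∈ K, ∀ i, f (a i) = b i)
    (h g : Equiv.Perm α) (hg : g ∈ K) (x y : α) (hx : x ∈ D) (hy : y ∈ D)
    (h1 : h w = x) (h1' : h x = w) (hD : ∀ a ∈ D, a ≠ x → h a ∈ D)
    (h4 : g x = y) (hxy : x ≠ y)
    (h6 : (g * h) ^ 3 ∈ K) (h7 : h ^ 2 ∈ K) (h8 : ∀ f ∈ K, f x = x → h * f * h ∈ K) :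
    (∀ f ∈ Subgroup.closure ((K : Set (Equiv.Perm α)) ∪ {h}), f w = w ↔ f ∈ K) ∧
    (∀ f ∈ Subgroup.closure ((K : Set (Equiv.Perm α)) ∪ {h}), ∀ a, (a ∈ D ∨ a = w) →
      (f a ∈ D ∨ f a = w)) ∧
    (∀ a b : Fin (k + 1) ↪ α, (∀ i, a i ∈ D ∨ a i = w) → (∀ i, b i ∈ D ∨ b i = w) →
      ∃ f ∈ Subgroup.closure ((K : Set (Equiv.Perm α)) ∪ {h}), ∀ i, f (a i) = b i) := by
  have hxw : x ≠ w := fun e => hw (e ▸ hx)
  have hform := form K h g x y hg h4 (fun a ha hax => by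
    obtain ⟨u, hu, h1, h2⟩ := h2 x (a x) x y hx (hKD a ha x hx) hx hy (Ne.symm hax) hxy
    exact ⟨u, hu, h1, h2⟩) h6 h7 h8
  have hKle : K ≤ Subgroup.closure ((K : Set (Equiv.Perm α)) ∪ {h}) := fun f hf =>
    Subgroup.subset_closure (Or.inl hf)
  have hhm : h ∈ Subgroup.closure ((K : Set (Equiv.Perm α)) ∪ {h}) :=
    Subgroup.subset_closure (Or.inr rfl)
  have hi : ∀ f ∈ Subgroup.closure ((K : Set (Equiv.Perm α)) ∪ {h}), f w = w ↔ f ∈ K := by
    intro f hf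
    refine ⟨fun hfw => ?_, hKw f⟩
    rcases hform f hf with h' | ⟨a, ha, b, hb, rfl⟩
    · exact h'
    · exfalso
      simp only [Equiv.Perm.mul_apply, hKw b hb, h1] at hfw
      have := hKw a ha
      rw [← this] at hfw
      exact hxw (by simpa using a.injective hfw)
  have hKD' : ∀ f ∈ K, ∀ a, (a ∈ D ∨ a = w) → (f a ∈ D ∨ f a = w) := by
    intro f hf a ha
    rcases ha with ha | rfl
    · exact Or.inl (hKD f hf a ha)
    · exact Or.inr (hKw f hf)
  have hhD' : ∀ a, (a ∈ D ∨ a = w) → (h a ∈ D ∨ h a = w) := by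
    intro a ha
    rcases ha with ha | rfl
    · by_cases hax : a = x
      · subst hax; exact Or.inr h1'
      · exact Or.inl (hD a ha hax)
    · rw [h1]; exact Or.inl hx
  have hii : ∀ f ∈ Subgroup.closure ((K : Set (Equiv.Perm α)) ∪ {h}), ∀ a, (a ∈ D ∨ a = w) →
      (f a ∈ D ∨ f a = w) := by
    intro f hf a ha
    rcases hform f hf with h' | ⟨c, hc, b, hb, rfl⟩
    · exact hKD' f h' a ha
    · simp only [Equiv.Perm.mul_apply]
      exact hKD' c hc _ (hhD' _ (hKD' b hb a ha))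
  refine ⟨hi, hii, ?_⟩
  -- transitivity to w
  have htr : ∀ a, (a ∈ D ∨ a = w) →
      ∃ f ∈ Subgroup.closure ((K : Set (Equiv.Perm α)) ∪ {h}), f a = w := by
    intro a ha
    rcases ha with ha | rfl
    · by_cases hax : a = x
      · subst hax; exact ⟨h, hhm, h1'⟩
      · obtain ⟨u, hu, hu1, _⟩ := h2 a x x y ha hx hx hy hax hxy
        exact ⟨h * u, Subgroup.mul_mem _ hhm (hKle hu), by simp [hu1, h1']⟩
    · exact ⟨1, Subgroup.one_mem _, rfl⟩
  intro a b ha hb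
  obtain ⟨fa, hfa, hfa0⟩ := htr (a 0) (ha 0)
  obtain ⟨fb, hfb, hfb0⟩ := htr (b 0) (hb 0)
  let a' : Fin k ↪ α := ⟨fun i => fa (a i.succ), fun i j hij => by
    have := a.injective (fa.injective hij)
    exact Fin.succ_injective _ this⟩
  let b' : Fin k ↪ α := ⟨fun i => fb (b i.succ), fun i j hij => by
    have := b.injective (fb.injective hij)
    exact Fin.succ_injective _ this⟩
  have ha' : ∀ i, a' i ∈ D := by
    intro i
    rcases hii fa hfa _ (ha i.succ) with h' | h'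
    · exact h'
    · exfalso
      rw [← hfa0] at h'
      have := a.injective (fa.injective h')
      exact Fin.succ_ne_zero i this
  have hb' : ∀ i, b' i ∈ D := by
    intro i
    rcases hii fb hfb _ (hb i.succ) with h' | h'
    · exact h'
    · exfalso
      rw [← hfb0] at h'
      have := b.injective (fb.injective h')
      exact Fin.succ_ne_zero i this
  obtain ⟨f, hf, hfi⟩ := hk a' b' ha' hb'
  refine ⟨fb⁻¹ * f * fa, Subgroup.mul_mem _ (Subgroup.mul_mem _ (Subgroup.inv_mem _ hfb)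
    (hKle hf)) hfa, ?_⟩
  intro i
  simp only [Equiv.Perm.mul_apply]
  rw [Equiv.Perm.inv_eq_iff_eq]
  refine Fin.cases ?_ (fun j => ?_) i
  · rw [hfa0, hfb0]; exact hKw f hf
  · exact hfi j

end Cfsg.Agent.Lib.Helper29.WittExt
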